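import Cfsg.Agent.ShultGross.Special
import Cfsg.Agent.CoprimeAction.Frattini

/-!
The central lemma: an automorphism of order dividing `p ^ (n + 1)`, acting without fixed points on a
`q`-group and on a module for it, has its `p ^ n`-th power centralised by the module.
-/

set_option autoImplicit false
set_option linter.style.haveILetI false
set_option linter.unusedSectionVars false

namespace CfsgLib.ShultGross

open scoped commutatorElement

section

variable {k : Type*} [Field k] {V : Type*} [AddCommGroup V] [Module k V] {Q : Type*} [Group Q]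

/-- The representation on a quotient by an invariant subspace. -/
def quotRep (ρ : Q →* Module.End k V) (W : Submodule k V) (hW : ∀ x, ∀ v ∈ W, ρ x v ∈ W) :
    Q →* Module.End k (V ⧸ W) where
  toFun x := W.mapQ W (ρ x) (hW x)
  map_one' := Submodule.linearMap_qext _ (LinearMap.ext fun v => by simp)
  map_mul' x y := Submodule.linearMap_qext _ (LinearMap.ext fun v => by simp)

theorem mapQ_pow_mk (W : Submodule k V) (f : Module.End k V) (hW : ∀ v ∈ W, f v ∈ W) (j : ℕ) (v : V) :
    (W.mapQ W f hW ^ j) (Submodule.Quotient.mk v) = Submodule.Quotient.mk ((f ^ j) v) := by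
  induction j generalizing v with
  | zero => rfl
  | succ j IH => rw [pow_succ, Module.End.mul_apply, Submodule.mapQ_apply, IH, pow_succ, Module.End.mul_apply]

theorem quotient_fixed_eq_zero [FiniteDimensional k V] (W : Submodule k V) (T : Module.End k V)
    (hW : ∀ v ∈ W, T v ∈ W) (hfpf : ∀ v, T v = v → v = 0) (a : V ⧸ W) (ha : W.mapQ W T hW a = a) : a = 0 := by
  induction a using Submodule.Quotient.induction_on with
  | H v =>
    rw [Submodule.mapQ_apply, Submodule.Quotient.eq] at ha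
    have hinj : Function.Injective ((T.restrict hW) - 1 : Module.End k W) := by
      rw [injective_iff_map_eq_zero]
      intro w hw
      rw [LinearMap.sub_apply, Module.End.one_apply, sub_eq_zero] at hw
      exact Subtype.ext (hfpf _ (congrArg Subtype.val hw))
    obtain ⟨w, hw⟩ := (LinearMap.injective_iff_surjective.1 hinj) ⟨T v - v, ha⟩
    have hw' : T (w : V) - w = T v - v := congrArg Subtype.val hw
    have h1 : T (v - w) = v - w := by
      rw [map_sub]
      have := sub_eq_sub_iff_add_eq_add.1 hw'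
      rw [sub_eq_sub_iff_add_eq_add, add_comm v, this]
    rw [Submodule.Quotient.mk_eq_zero, sub_eq_zero.1 (hfpf _ h1)]
    exact w.2

theorem eq_of_block_trivial {q : ℕ} (hqk : (q : k) ≠ 0) (hQ : IsPGroup q Q) (ρ : Q →* Module.End k V)
    (W : Submodule k V) (c : Q) (h1 : ∀ w ∈ W, ρ c w = w) (h2 : ∀ v, ρ c v - v ∈ W) : ρ c = 1 := by
  set N : Module.End k V := ρ c - 1 with hN
  have hNN : N * N = 0 := LinearMap.ext fun v => by
    rw [Module.End.mul_apply, hN, LinearMap.sub_apply, LinearMap.sub_apply, Module.End.one_apply,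
      Module.End.one_apply, h1 _ (h2 v), sub_self]
    rfl
  have hpow : ∀ l : ℕ, (1 + N) ^ l = 1 + (l : k) • N := by
    intro l
    induction l with
    | zero => simp
    | succ l IH =>
      rw [pow_succ, IH, mul_add, mul_one, add_mul, one_mul, smul_mul_assoc, hNN, smul_zero, add_zero,
        Nat.cast_succ, add_smul, one_smul, ← add_assoc]
  obtain ⟨a, ha⟩ := hQ c
  have h := hpow (q ^ a)
  rw [show (1 : Module.End k V) + N = ρ c by rw [hN]; abel, ← map_pow, ha, map_one, Nat.cast_pow,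
    left_eq_add] at h
  have hN0 := (smul_eq_zero.1 h).resolve_left (pow_ne_zero _ hqk)
  rwa [hN, sub_eq_zero] at hN0

end

universe u v

variable {k : Type*} [Field k] [IsAlgClosed k] {p n q : ℕ} [Fact q.Prime]

/-- The automorphism induced on an invariant subgroup. -/
noncomputable def subAut {Q : Type*} [Group Q] [Finite Q] (σ : MulAut Q) (H : Subgroup Q)
    (hH : ∀ x ∈ H, σ x ∈ H) : MulAut H where
  toFun x := ⟨σ x, hH x x.2⟩
  invFun x := ⟨σ.symm x, symm_mem hH x.2⟩
  left_inv x := Subtype.ext (σ.symm_apply_apply x)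
  right_inv x := Subtype.ext (σ.apply_symm_apply x)
  map_mul' x y := Subtype.ext (map_mul σ (x : Q) y)

theorem subAut_pow_apply {Q : Type*} [Group Q] [Finite Q] (σ : MulAut Q) (H : Subgroup Q)
    (hH : ∀ x ∈ H, σ x ∈ H) (j : ℕ) (x : H) : ((subAut σ H hH ^ j) x : Q) = (σ ^ j) x := by
  induction j with
  | zero => rfl
  | succ j IH => rw [pow_succ', MulAut.mul_apply, pow_succ', MulAut.mul_apply, ← IH]; rfl

theorem pow_fixed_aux (hp : p.Prime) (hp2 : p ≠ 2) (hpk : (p : k) ≠ 0) (hqk : (q : k) ≠ 0) (hqp : q ≠ p)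
    (N : ℕ) : ∀ (Q : Type u) [Group Q] [Finite Q] (V : Type v) [AddCommGroup V] [Module k V]
      [FiniteDimensional k V], Nat.card Q + Module.finrank k V = N → IsPGroup q Q →
      ∀ (ρ : Q →* Module.End k V) (σ : MulAut Q) (T : Module.End k V),
      σ ^ p ^ (n + 1) = 1 → T ^ p ^ (n + 1) = 1 → (∀ x, T * ρ x = ρ (σ x) * T) →
      (∀ x, σ x = x → x = 1) → (∀ v, T v = v → v = 0) → ∀ x, ρ ((σ ^ p ^ n) x) = ρ x := by
  induction N using Nat.strong_induction_on with
  | _ N ih =>
  intro Q _ _ V _ _ _ hN hQ ρ σ T hσ hT hTρ hσfpf hfpf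
  classical
  subst hN
  rcases subsingleton_or_nontrivial V with hsV | hnV
  · intro x; exact LinearMap.ext fun v => Subsingleton.elim _ _
  set τ := σ ^ p ^ n with hτ
  have hTu : IsUnit T := (Units.ofPowEqOne T _ hT (pow_ne_zero _ hp.ne_zero)).isUnit
  by_cases hker : ρ.ker ≠ ⊥
  · -- pass to the image
    have hK : ∀ x ∈ ρ.ker, σ x ∈ ρ.ker := by
      intro x hx
      rw [MonoidHom.mem_ker] at hx ⊢
      refine hTu.mul_left_injective ?_
      show ρ (σ x) * T = 1 * T
      rw [← hTρ, hx, mul_one, one_mul]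
    have hlt : Nat.card (Q ⧸ ρ.ker) < Nat.card Q := by
      rw [Subgroup.card_eq_card_quotient_mul_card_subgroup ρ.ker]
      exact lt_mul_of_one_lt_right Nat.card_pos ((Subgroup.one_lt_card_iff_ne_bot _).2 hker)
    have h := ih _ (Nat.add_lt_add_right hlt _) (Q ⧸ ρ.ker) V rfl (hQ.to_quotient _)
      (QuotientGroup.lift ρ.ker ρ le_rfl) (quotAut σ ρ.ker hK) T (quotAut_pow_eq_one _ hK hσ) hT
      (fun a => by
        induction a using QuotientGroup.induction_on with
        | H x => rw [quotAut_mk, QuotientGroup.lift_mk, QuotientGroup.lift_mk, hTρ])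
      (quotAut_fpf σ ρ.ker hK fun x hx => mem_of_displacement_mem σ hσfpf ρ.ker hK hx) hfpf
    intro x
    have := h (x : Q ⧸ ρ.ker)
    rwa [quotAut_pow_mk, QuotientGroup.lift_mk, QuotientGroup.lift_mk] at this
  push Not at hker
  have hinj : Function.Injective ρ := (MonoidHom.ker_eq_bot_iff ρ).1 hker
  by_cases hred : ∃ W : Submodule k V, W ≠ ⊥ ∧ W ≠ ⊤ ∧ (∀ x, ∀ v ∈ W, ρ x v ∈ W) ∧ ∀ v ∈ W, T v ∈ W
  · obtain ⟨W, hW0, hW1, hWQ, hWT⟩ := hred
    have hd1 : Module.finrank k W < Module.finrank k V := Submodule.finrank_lt hW1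
    have hd2 : Module.finrank k (V ⧸ W) < Module.finrank k V := by
      have h1 := W.finrank_quotient_add_finrank
      have h2 := Submodule.one_le_finrank_iff.2 hW0
      omega
    have hA := ih _ (Nat.add_lt_add_left hd1 _) Q W rfl hQ (subRep ρ W hWQ) σ (T.restrict hWT) hσ
      (LinearMap.ext fun w => Subtype.ext (by rw [restrict_pow, hT]; rfl))
      (fun x => LinearMap.ext fun w => Subtype.ext (by
        exact LinearMap.congr_fun (hTρ x) (w : V)))
      hσfpf (fun w hw => Subtype.ext (hfpf _ (congrArg Subtype.val hw)))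
    have hB := ih _ (Nat.add_lt_add_left hd2 _) Q (V ⧸ W) rfl hQ (quotRep ρ W hWQ) σ (W.mapQ W T hWT) hσ
      (Submodule.linearMap_qext _ (LinearMap.ext fun v => by
        rw [LinearMap.comp_apply, LinearMap.comp_apply, Submodule.mkQ_apply, mapQ_pow_mk, hT]
        rfl))
      (fun x => Submodule.linearMap_qext _ (LinearMap.ext fun v => by
        show Submodule.Quotient.mk ((T * ρ x) v) = Submodule.Quotient.mk ((ρ (σ x) * T) v)
        rw [hTρ]))
      hσfpf (fun a ha => quotient_fixed_eq_zero W T hWT hfpf a ha)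
    intro x
    have hc1 : ∀ w ∈ W, ρ (x⁻¹ * τ x) w = w := by
      intro w hw
      have h1 : ρ (τ x) w = ρ x w := congrArg Subtype.val (LinearMap.congr_fun (hA x) ⟨w, hw⟩)
      rw [map_mul, Module.End.mul_apply, h1, ← Module.End.mul_apply, ← map_mul, inv_mul_cancel, map_one,
        Module.End.one_apply]
    have hc2 : ∀ v, ρ (x⁻¹ * τ x) v - v ∈ W := by
      intro v
      have h1 : Submodule.Quotient.mk (ρ (τ x) v) = (Submodule.Quotient.mk (ρ x v) : V ⧸ W) :=
        LinearMap.congr_fun (hB x) (Submodule.Quotient.mk v)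
      rw [Submodule.Quotient.eq] at h1
      have h2 := hWQ x⁻¹ _ h1
      rwa [map_sub, ← Module.End.mul_apply, ← map_mul, ← Module.End.mul_apply, ← map_mul, inv_mul_cancel,
        map_one, Module.End.one_apply] at h2
    have h := eq_of_block_trivial hqk hQ ρ W _ hc1 hc2
    calc ρ (τ x) = ρ (x * (x⁻¹ * τ x)) := by rw [mul_inv_cancel_left]
      _ = ρ x := by rw [map_mul, h, mul_one]
  push Not at hred
  have hirr : ∀ U : Submodule k V, (∀ x, ∀ v ∈ U, ρ x v ∈ U) → (∀ v ∈ U, T v ∈ U) → U = ⊥ ∨ U = ⊤ := by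
    intro U h1 h2
    by_contra! h
    obtain ⟨v, hv, hv'⟩ := hred U h.1 h.2 h1
    exact hv' (h2 v hv)
  have hfixsub : ∀ H : Subgroup Q, (∀ x ∈ H, σ x ∈ H) → H ≠ ⊤ → ∀ x ∈ H, τ x = x := by
    intro H hH hne x hx
    have hlt : Nat.card H < Nat.card Q :=
      lt_of_le_of_ne (Subgroup.card_le_card_group H) fun h => hne (Subgroup.eq_top_of_card_eq H h)
    have h := ih _ (Nat.add_lt_add_right hlt _) H V rfl (hQ.to_subgroup H) (ρ.comp H.subtype) (subAut σ H hH) T
      (MulEquiv.ext fun y => Subtype.ext (by rw [subAut_pow_apply, hσ]; rfl)) hT (fun y => hTρ (y : Q))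
      (fun y hy => Subtype.ext (hσfpf _ (congrArg Subtype.val hy))) hfpf ⟨x, hx⟩
    have h' : ρ ((subAut σ H hH ^ p ^ n) ⟨x, hx⟩ : Q) = ρ x := h
    rw [subAut_pow_apply] at h'
    exact hinj h'
  intro x₀
  refine congrArg ρ ?_
  by_cases hab : ∀ x y : Q, x * y = y * x
  · exact hinj (fixed_on_central hp ρ σ T hσ hT hTρ hfpf hirr ⊤ (fun _ _ => Subgroup.mem_top _)
      (fun x _ y => by rw [← map_mul, ← map_mul, hab]) x₀ (Subgroup.mem_top _))
  have hcne : Subgroup.center Q ≠ ⊤ := fun h => hab fun x y =>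
    (Subgroup.mem_center_iff.1 (by rw [h]; trivial) x : x * y = y * x)
  set D : Subgroup Q := Subgroup.closure (Set.range fun x => x⁻¹ * τ x) with hD
  have hcomσ : ∀ x, σ (τ x) = τ (σ x) := fun x => by
    rw [hτ, ← MulAut.mul_apply, ← pow_succ', pow_succ, MulAut.mul_apply]
  have hDσ : ∀ x ∈ D, σ x ∈ D := by
    intro x hx
    have hle : D ≤ D.comap σ.toMonoidHom := by
      rw [hD, Subgroup.closure_le]
      rintro _ ⟨y, rfl⟩
      exact Subgroup.subset_closure ⟨σ y, by simp [hcomσ, map_mul, map_inv]⟩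
    exact hle hx
  by_cases hDtop : D ≠ ⊤
  · set c := x₀⁻¹ * τ x₀ with hc
    have hfix := hfixsub D hDσ hDtop c (Subgroup.subset_closure ⟨x₀, rfl⟩)
    have hit : ∀ l : ℕ, (τ ^ l) x₀ = x₀ * c ^ l := by
      intro l
      induction l with
      | zero => simp
      | succ l IH =>
        rw [pow_succ', MulAut.mul_apply, IH, map_mul, map_pow, hfix]
        calc τ x₀ * c ^ l = x₀ * c * c ^ l := by rw [hc, mul_inv_cancel_left]
          _ = x₀ * c ^ (l + 1) := by rw [mul_assoc, ← pow_succ']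
    have h1 := hit p
    rw [hτ, ← pow_mul, ← pow_succ, hσ, MulAut.one_apply, left_eq_mul] at h1
    obtain ⟨a, ha⟩ := hQ c
    have hc1 : c = 1 := by
      rw [← orderOf_eq_one_iff]
      exact Nat.eq_one_of_dvd_coprimes (((Nat.coprime_primes hp (Fact.out : q.Prime)).2 (Ne.symm hqp)).pow_right a)
        (orderOf_dvd_of_pow_eq_one h1) (orderOf_dvd_of_pow_eq_one ha)
    exact (inv_mul_eq_one.1 (hc.symm.trans hc1)).symm
  push Not at hDtop
  exfalso
  haveI : Nontrivial Q := by
    by_contra h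
    rw [not_nontrivial_iff_subsingleton] at h
    exact hab fun x y => Subsingleton.elim _ _
  have hΦne : frattini Q ≠ ⊤ := by
    obtain ⟨M, hM⟩ := IsCoatomic.exists_coatom (α := Subgroup Q)
    exact fun h => hM.1 (eq_top_iff.2 (h.ge.trans (frattini_le_coatom hM)))
  set Φ := frattini Q with hΦ
  haveI : Φ.Normal := by rw [hΦ]; infer_instance
  have hΦσ : ∀ x ∈ Φ, σ x ∈ Φ := fun x hx => by
    have h1 : Φ.comap σ.toMonoidHom = Φ := Subgroup.Characteristic.fixed (H := frattini Q) inferInstance σ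
    rw [← h1] at hx
    exact hx
  have hτΦ := hfixsub Φ hΦσ hΦne
  have hΦZ : Φ ≤ Subgroup.center Q := by
    intro a ha
    rw [Subgroup.mem_center_iff]
    intro g
    have hle : D ≤ Subgroup.centralizer {a} := by
      rw [hD, Subgroup.closure_le]
      rintro _ ⟨y, rfl⟩
      rw [SetLike.mem_coe, Subgroup.mem_centralizer_singleton_iff]
      have h1 := hτΦ _ ((inferInstance : Φ.Normal).conj_mem a ha y)
      rw [map_mul, map_mul, map_inv, hτΦ a ha] at h1
      calc y⁻¹ * τ y * a = y⁻¹ * (τ y * a * (τ y)⁻¹) * τ y := by group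
        _ = y⁻¹ * (y * a * y⁻¹) * τ y := by rw [h1]
        _ = a * (y⁻¹ * τ y) := by group
    exact Subgroup.mem_centralizer_singleton_iff.1 (hle (by rw [hDtop]; trivial : g ∈ _))
  have hcommΦ : ∀ x y : Q, ⁅x, y⁆ ∈ Φ := fun x y =>
    CoprimeAction.commutator_le_frattini' hQ
      (Subgroup.commutator_mem_commutator (Subgroup.mem_top x) (Subgroup.mem_top y))
  have hτΦmem : ∀ x ∈ Φ, τ x ∈ Φ := fun x hx => pow_apply_mem hΦσ _ hx
  have hqcomm : ∀ a b : Q ⧸ Φ, a * b = b * a := by
    intro a b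
    induction a using QuotientGroup.induction_on with
    | H x =>
    induction b using QuotientGroup.induction_on with
    | H y =>
      rw [← QuotientGroup.mk_mul, ← QuotientGroup.mk_mul, QuotientGroup.eq,
        show (x * y)⁻¹ * (y * x) = ⁅y⁻¹, x⁻¹⁆ by rw [commutatorElement_def]; group]
      exact hcommΦ _ _
  let τq := quotAut τ Φ hτΦmem
  let δ : Q ⧸ Φ →* Q ⧸ Φ := MonoidHom.mk' (fun a => a⁻¹ * τq a) (fun a b => by
    rw [map_mul, mul_inv_rev, hqcomm b⁻¹ a⁻¹, mul_assoc, mul_assoc, ← mul_assoc b⁻¹, hqcomm b⁻¹ (τq a), mul_assoc])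
  have hδsurj : Function.Surjective δ := by
    rw [← MonoidHom.range_eq_top, eq_top_iff]
    intro a _
    induction a using QuotientGroup.induction_on with
    | H x =>
      have hle : D ≤ δ.range.comap (QuotientGroup.mk' Φ) := by
        rw [hD, Subgroup.closure_le]
        rintro _ ⟨y, rfl⟩
        exact ⟨(y : Q ⧸ Φ), by simp [δ, τq, quotAut_mk]⟩
      exact hle (by rw [hDtop]; trivial : x ∈ D)
  have hdispΦ : ∀ x, x⁻¹ * τ x ∈ Φ → x ∈ Φ := by
    intro x hx
    rw [← QuotientGroup.eq_one_iff]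
    refine (Finite.injective_iff_surjective.2 hδsurj) ?_
    rw [map_one]
    show ((x : Q ⧸ Φ))⁻¹ * τq x = 1
    rw [quotAut_mk, ← QuotientGroup.mk_inv, ← QuotientGroup.mk_mul, QuotientGroup.eq_one_iff]
    exact hx
  have hZeq : Subgroup.center Q = Φ := le_antisymm (fun z hz => hdispΦ z (by
    rw [hfixsub _ (center_invariant σ) hcne z hz, inv_mul_cancel]; exact one_mem _)) hΦZ
  exact special_false hp hp2 hpk hqk hQ ρ hinj σ T hσ hT hTρ hσfpf hfpf hirr
    (fun x y => hZeq ▸ hcommΦ x y) (fun x hx => by rw [hZeq] at hx ⊢; exact hdispΦ x hx) hcne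

theorem pow_fixed (hp : p.Prime) (hp2 : p ≠ 2) (hpk : (p : k) ≠ 0) (hqk : (q : k) ≠ 0) (hqp : q ≠ p)
    {Q : Type u} [Group Q] [Finite Q] {V : Type v} [AddCommGroup V] [Module k V] [FiniteDimensional k V]
    (hQ : IsPGroup q Q) (ρ : Q →* Module.End k V) (σ : MulAut Q) (T : Module.End k V)
    (hσ : σ ^ p ^ (n + 1) = 1) (hT : T ^ p ^ (n + 1) = 1) (hTρ : ∀ x, T * ρ x = ρ (σ x) * T)
    (hσfpf : ∀ x, σ x = x → x = 1) (hfpf : ∀ v, T v = v → v = 0) (x : Q) :
    ρ ((σ ^ p ^ n) x) = ρ x :=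
  pow_fixed_aux hp hp2 hpk hqk hqp _ Q V rfl hQ ρ σ T hσ hT hTρ hσfpf hfpf x

end CfsgLib.ShultGross
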