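import Cfsg.Agent.ShultGross.Core
import Cfsg.Agent.HallHigmanB.Field
import Cfsg.Agent.ExtraFpf.ConjRep
import Cfsg.Agent.CoprimeAction.Frattini
import Cfsg.Agent.KegelWielandt.Base
import Cfsg.Agent.FpfRankTwo.Main
import Cfsg.Agent.MaxCent.Basic

/-!
The reduction: the last power of a fixed point free automorphism acts trivially modulo the Fitting subgroup.
-/

set_option autoImplicit false
set_option linter.style.haveILetI false
set_option linter.unusedSectionVars false
set_option maxHeartbeats 400000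

namespace CfsgLib.ShultGross

open scoped IsMulCommutative
open CfsgLib.MaxCent (IsPElem)

variable {G : Type*} [Group G] [Finite G] {p n : ℕ}

theorem not_dvd_card (hp : p.Prime) (σ : MulAut G) (hσ : σ ^ p ^ n = 1) (hfpf : ∀ g, σ g = g → g = 1) :
    ¬ p ∣ Nat.card G := by
  intro hd
  haveI := Fact.mk hp
  have hA : IsPGroup p (Subgroup.zpowers σ) := by
    obtain ⟨j, -, hj⟩ := (Nat.dvd_prime_pow hp).1 (orderOf_dvd_of_pow_eq_one hσ)
    exact IsPGroup.of_card (n := j) (by rw [Nat.card_zpowers, hj])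
  letI : MulAction (Subgroup.zpowers σ) G := MulAction.compHom G (Subgroup.zpowers σ).subtype
  have h := hA.card_modEq_card_fixedPoints G
  have hfix : ∀ x : G, x ∈ MulAction.fixedPoints (Subgroup.zpowers σ) G → x = 1 := fun x hx =>
    hfpf x (hx ⟨σ, Subgroup.mem_zpowers σ⟩)
  have h1 : Nat.card (MulAction.fixedPoints (Subgroup.zpowers σ) G) = 1 := by
    rw [Nat.card_eq_one_iff_unique]
    refine ⟨⟨fun x y => Subtype.ext ((hfix _ x.2).trans (hfix _ y.2).symm)⟩, ⟨1, fun a => ?_⟩⟩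
    exact map_one (a : MulAut G)
  rw [h1] at h
  exact hp.one_lt.ne' (Nat.dvd_one.1 (Nat.modEq_zero_iff_dvd.1 (h.symm.trans (Nat.modEq_zero_iff_dvd.2 hd))))

theorem prime_ne_of_dvd {q : ℕ} (hpG : ¬ p ∣ Nat.card G) (hq : q.Prime) {H : Subgroup G} (hH : IsPGroup q H)
    (hne : H ≠ ⊥) : q ≠ p := by
  haveI := Fact.mk hq
  rintro rfl
  haveI : Nontrivial H := Subgroup.nontrivial_iff_ne_bot _ |>.2 hne
  obtain ⟨j, hj, hcard⟩ := hH.nontrivial_iff_card.1 inferInstance
  exact hpG ((hcard ▸ dvd_pow_self q hj.ne').trans (Subgroup.card_subgroup_dvd_card H))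

theorem centralizes_abelian (hp : p.Prime) (hp2 : p ≠ 2) (σ : MulAut G) (hσ : σ ^ p ^ (n + 1) = 1)
    (hfpf : ∀ g, σ g = g → g = 1) {q r : ℕ} [Fact q.Prime] [Fact r.Prime] (hqp : q ≠ p) (hrp : r ≠ p)
    (hqr : q ≠ r) (Q : Subgroup G) (hQq : IsPGroup q Q) (hQσ : ∀ x ∈ Q, σ x ∈ Q) (R : Subgroup G) [R.Normal]
    [IsMulCommutative R] (hexp : ∀ x : R, x ^ r = 1) (hRσ : ∀ x ∈ R, σ x ∈ R) :
    ∀ x ∈ Q, x⁻¹ * (σ ^ p ^ n) x ∈ Subgroup.centralizer (R : Set G) := by
  classical
  intro x hx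
  rcases eq_or_ne R ⊥ with hR | hR
  · rw [Subgroup.mem_centralizer_iff]
    intro g hg
    rw [hR, SetLike.mem_coe, Subgroup.mem_bot] at hg
    rw [hg, one_mul, mul_one]
  haveI inst : Module (ZMod r) (Additive R) := AddCommGroup.zmodModule (n := r) (G := Additive R) fun a => by
    rw [← ofMul_toMul a, ← ofMul_pow, hexp]; rfl
  haveI : Nontrivial R := Subgroup.nontrivial_iff_ne_bot _ |>.2 hR
  let ι : G →* Subgroup.normalizer (R : Set G) := (MonoidHom.id G).codRestrict _ fun g => by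
    rw [Subgroup.normalizer_eq_top_iff.2 ‹R.Normal›]; exact Subgroup.mem_top _
  let ρ₀ : G →* Module.End (ZMod r) (Additive R) := (ExtraFpf.conjRep R r).comp ι
  have hρ₀ : ∀ (g : G) (v : Additive R), ((Additive.toMul (ρ₀ g v) : R) : G) =
      g * ((Additive.toMul v : R) : G) * g⁻¹ := fun g v => rfl
  let T₀ : Module.End (ZMod r) (Additive R) :=
    (MonoidHom.toAdditive (subAut σ R hRσ).toMonoidHom).toZModLinearMap r
  have hT₀ : ∀ v : Additive R, ((Additive.toMul (T₀ v) : R) : G) = σ ((Additive.toMul v : R) : G) := fun v => rfl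
  have hext : ∀ f g : Module.End (ZMod r) (Additive R),
      (∀ v, ((Additive.toMul (f v) : R) : G) = ((Additive.toMul (g v) : R) : G)) → f = g :=
    fun f g h => LinearMap.ext fun v => Additive.toMul.injective (Subtype.ext (h v))
  have hrel : ∀ g, T₀ * ρ₀ g = ρ₀ (σ g) * T₀ := fun g => hext _ _ fun v => by
    rw [Module.End.mul_apply, Module.End.mul_apply, hT₀, hρ₀, hρ₀, hT₀, map_mul, map_mul, map_inv]
  have hTpow : ∀ (j : ℕ) (v : Additive R), ((Additive.toMul ((T₀ ^ j) v) : R) : G) =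
      (σ ^ j) ((Additive.toMul v : R) : G) := by
    intro j
    induction j with
    | zero => intro v; rfl
    | succ j IH => intro v; rw [pow_succ', Module.End.mul_apply, hT₀, IH, pow_succ', MulAut.mul_apply]
  have hT1 : T₀ ^ p ^ (n + 1) = 1 := hext _ _ fun v => by rw [hTpow, hσ]; rfl
  have hT0fpf : ∀ v, T₀ v = v → v = 0 := fun v hv => by
    have h := hfpf _ ((hT₀ v).symm.trans (by rw [hv]))
    exact Additive.toMul.injective (Subtype.ext h)
  haveI : Finite (Additive R) := Finite.of_equiv _ Additive.ofMul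
  haveI : FiniteDimensional (ZMod r) (Additive R) := Module.Finite.of_finite
  obtain ⟨φ, hφ⟩ := HallHigmanB.exists_baseChange (F := ZMod r) (V := Additive R)
  haveI : CharP (AlgebraicClosure (ZMod r)) r :=
    charP_of_injective_algebraMap (algebraMap (ZMod r) (AlgebraicClosure (ZMod r))).injective r
  have hcast : ∀ s : ℕ, s.Prime → s ≠ r → ((s : ℕ) : AlgebraicClosure (ZMod r)) ≠ 0 := fun s hs hne h => by
    rw [CharP.cast_eq_zero_iff (AlgebraicClosure (ZMod r)) r] at h
    exact hne.symm ((Nat.prime_dvd_prime_iff_eq Fact.out hs).1 h)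
  have hu : IsUnit (T₀ - 1) := by
    rw [LinearMap.isUnit_iff_ker_eq_bot, eq_bot_iff]
    intro v hv
    rw [LinearMap.mem_ker, LinearMap.sub_apply, Module.End.one_apply, sub_eq_zero] at hv
    exact (Submodule.mem_bot _).2 (hT0fpf v hv)
  have hTfpf : ∀ w, φ T₀ w = w → w = 0 := by
    intro w hw
    have h1 : IsUnit (φ T₀ - 1) := by rw [← map_one φ, ← map_sub]; exact hu.map φ
    obtain ⟨u, hu'⟩ := h1
    have h2 : (↑u : Module.End (AlgebraicClosure (ZMod r)) _) w = 0 := by
      rw [hu', LinearMap.sub_apply, Module.End.one_apply, hw, sub_self]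
    have h3 := congrArg (↑u⁻¹ : Module.End (AlgebraicClosure (ZMod r)) _) h2
    rwa [← Module.End.mul_apply, Units.inv_mul, Module.End.one_apply, map_zero] at h3
  have key := pow_fixed hp hp2 (hcast p hp hrp.symm) (hcast q Fact.out hqr) hqp hQq
    ((φ.toMonoidHom.comp ρ₀).comp Q.subtype) (subAut σ Q hQσ) (φ T₀)
    (MulEquiv.ext fun y => Subtype.ext (by rw [subAut_pow_apply, hσ]; rfl))
    (by rw [← map_pow, hT1, map_one])
    (fun y => by
      show φ T₀ * φ (ρ₀ (y : G)) = φ (ρ₀ (σ (y : G))) * φ T₀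
      rw [← map_mul, hrel, map_mul])
    (fun y hy => Subtype.ext (hfpf _ (congrArg Subtype.val hy))) hTfpf ⟨x, hx⟩
  have h1 : φ (ρ₀ ((subAut σ Q hQσ ^ p ^ n) ⟨x, hx⟩ : G)) = φ (ρ₀ x) := key
  rw [subAut_pow_apply] at h1
  have h2 : ρ₀ (x⁻¹ * (σ ^ p ^ n) x) = 1 := by
    rw [map_mul, hφ h1, ← map_mul, inv_mul_cancel, map_one]
  exact (ExtraFpf.conjRep_eq_one R r (ι (x⁻¹ * (σ ^ p ^ n) x))).1 h2

theorem centralizes_pgroup (hp : p.Prime) (hp2 : p ≠ 2) (σ : MulAut G) (hσ : σ ^ p ^ (n + 1) = 1)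
    (hfpf : ∀ g, σ g = g → g = 1) {q r : ℕ} [Fact q.Prime] [Fact r.Prime] (hqp : q ≠ p) (hrp : r ≠ p)
    (hqr : q ≠ r) (Q : Subgroup G) (hQq : IsPGroup q Q) (hQσ : ∀ x ∈ Q, σ x ∈ Q) (R : Subgroup G) [R.Normal]
    (hRr : IsPGroup r R) (hRσ : ∀ x ∈ R, σ x ∈ R) :
    ∀ x ∈ Q, x⁻¹ * (σ ^ p ^ n) x ∈ Subgroup.centralizer (R : Set G) := by
  intro x hx
  set Φ : Subgroup G := (frattini R).map R.subtype with hΦ
  haveI : Φ.Normal := by rw [hΦ]; infer_instance
  have hΦσ : ∀ y ∈ Φ, σ y ∈ Φ := by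
    rintro _ ⟨⟨y, hy⟩, hyf, rfl⟩
    refine ⟨subAut σ R hRσ ⟨y, hy⟩, ?_, rfl⟩
    have h1 : (frattini R).comap (subAut σ R hRσ).toMonoidHom = frattini R :=
      Subgroup.Characteristic.fixed (H := frattini R) inferInstance (subAut σ R hRσ)
    rw [← h1] at hyf
    exact hyf
  have hπ := QuotientGroup.mk'_surjective Φ
  set π := QuotientGroup.mk' Φ with hπdef
  haveI : (R.map π).Normal := Subgroup.Normal.map inferInstance π hπ
  haveI : IsMulCommutative (R.map π) := by
    constructor; constructor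
    rintro ⟨_, a, ha, rfl⟩ ⟨_, b, hb, rfl⟩
    refine Subtype.ext ?_
    show π a * π b = π b * π a
    rw [← map_mul, ← map_mul, hπdef, QuotientGroup.mk'_apply, QuotientGroup.mk'_apply, QuotientGroup.eq]
    have h := CoprimeAction.commutator_le_frattini' hRr
      (Subgroup.commutator_mem_commutator (Subgroup.mem_top (⟨b, hb⟩⁻¹ : R)) (Subgroup.mem_top (⟨a, ha⟩⁻¹ : R)))
    refine ⟨_, h, ?_⟩
    simp [commutatorElement_def, mul_assoc]
  have hexp : ∀ y : R.map π, y ^ r = 1 := by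
    rintro ⟨_, a, ha, rfl⟩
    refine Subtype.ext ?_
    show π a ^ r = 1
    rw [← map_pow, hπdef, QuotientGroup.mk'_apply, QuotientGroup.eq_one_iff]
    exact ⟨_, CoprimeAction.pow_mem_frattini hRr ⟨a, ha⟩, rfl⟩
  have h := centralizes_abelian (n := n) hp hp2 (quotAut σ Φ hΦσ) (quotAut_pow_eq_one Φ hΦσ hσ)
    (quotAut_fpf σ Φ hΦσ fun y hy => mem_of_displacement_mem σ hfpf Φ hΦσ hy) hqp hrp hqr
    (Q.map π) (hQq.map π)
    (by rintro _ ⟨y, hy, rfl⟩; exact ⟨σ y, hQσ y hy, (quotAut_mk σ Φ hΦσ y).symm⟩)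
    (R.map π) hexp
    (by rintro _ ⟨y, hy, rfl⟩; exact ⟨σ y, hRσ y hy, (quotAut_mk σ Φ hΦσ y).symm⟩)
    (π x) ⟨x, hx, rfl⟩
  have hpow : (quotAut σ Φ hΦσ ^ p ^ n) (π x) = π ((σ ^ p ^ n) x) := quotAut_pow_mk σ Φ hΦσ _ x
  rw [hpow, ← map_inv, ← map_mul] at h
  set c := x⁻¹ * (σ ^ p ^ n) x with hc
  have hA : IsPGroup q (Subgroup.zpowers c) :=
    hQq.to_le (Subgroup.zpowers_le.2 (mul_mem (inv_mem hx) (pow_apply_mem hQσ _ hx)))
  refine CoprimeAction.le_centralizer_of_frattini (A := Subgroup.zpowers c) ?_ ?_ (Subgroup.mem_zpowers c)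
  · exact IsPGroup.coprime_card_of_ne q r hqr _ (frattini R) hA (hRr.to_subgroup _)
  · intro a ha k hk
    have ha' : π a ∈ Subgroup.centralizer ((R.map π : Subgroup (G ⧸ Φ)) : Set (G ⧸ Φ)) := by
      have hle : Subgroup.zpowers c ≤ (Subgroup.centralizer ((R.map π : Subgroup (G ⧸ Φ)) : Set (G ⧸ Φ))).comap π :=
        Subgroup.zpowers_le.2 h
      exact hle ha
    rw [← hΦ, ← QuotientGroup.eq_one_iff, ← QuotientGroup.mk'_apply, ← hπdef, map_mul, map_mul, map_mul, map_inv,
      map_inv, ← Subgroup.mem_centralizer_iff.1 ha' (π k) ⟨k, hk, rfl⟩, mul_inv_cancel_right, mul_inv_cancel]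

theorem characteristic_invariant {H : Type*} [Group H] (K : Subgroup H) (hK : K.Characteristic) (f : MulAut H) :
    ∀ x ∈ K, f x ∈ K := fun x hx => by
  have h1 : K.comap f.toMonoidHom = K := hK.fixed f
  rw [← h1] at hx
  exact hx

theorem pow_trivial_mod_fitting [Group.IsSolvable G] (hp : p.Prime) (hp2 : p ≠ 2) (σ : MulAut G)
    (hσ : σ ^ p ^ (n + 1) = 1) (hfpf : ∀ g, σ g = g → g = 1) (g : G) :
    g⁻¹ * (σ ^ p ^ n) g ∈ Cfsg.fittingSubgroup G := by
  classical
  have hpG := not_dvd_card hp σ hσ hfpf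
  set τ := σ ^ p ^ n with hτ
  set F := Cfsg.fittingSubgroup G with hF
  haveI hFn : F.Normal := Components.fittingSubgroup_normal
  have hFσ : ∀ x ∈ F, σ x ∈ F :=
    characteristic_invariant F Components.fittingSubgroup_characteristic σ
  haveI : Group.IsSolvable (G ⧸ F) :=
    Group.isSolvable_of_surjective (f := QuotientGroup.mk' F) (QuotientGroup.mk'_surjective F)
  set π := QuotientGroup.mk' F with hπ
  set σF := quotAut σ F hFσ with hσF
  set τF := σF ^ p ^ n with hτF
  have hτπ : ∀ y, τF (π y) = π (τ y) := fun y => quotAut_pow_mk σ F hFσ _ y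
  let S : Subgroup (G ⧸ F) := MonoidHom.eqLocus τF.toMonoidHom (MonoidHom.id _)
  have hlayer : ∀ q : ℕ, q.Prime → Cfsg.pCore q (G ⧸ F) ≤ S := by
    intro q hq
    haveI := Fact.mk hq
    set M := (Cfsg.pCore q (G ⧸ F)).comap π with hM
    have hFM : F ≤ M := fun x hx => by
      show π x ∈ Cfsg.pCore q (G ⧸ F)
      rw [hπ, QuotientGroup.mk'_apply, (QuotientGroup.eq_one_iff x).2 hx]
      exact one_mem _
    haveI : (Cfsg.pCore q (G ⧸ F)).Normal :=
      haveI := CfsgLib.PCore.pCore_characteristic q (G ⧸ F)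
      inferInstance
    haveI : M.Normal := by rw [hM]; infer_instance
    have hMσ : ∀ x ∈ M, σ x ∈ M := by
      intro x hx
      show π (σ x) ∈ Cfsg.pCore q (G ⧸ F)
      rw [hπ, QuotientGroup.mk'_apply, ← quotAut_mk σ F hFσ]
      exact characteristic_invariant _ (CfsgLib.PCore.pCore_characteristic q (G ⧸ F)) σF _ hx
    have hMq : ∀ x ∈ M, ∀ s : ℕ, s.Prime → s ≠ q → IsPElem s x → x ∈ F := by
      intro x hx s hs hsq ⟨a, ha⟩
      rw [← QuotientGroup.eq_one_iff, ← orderOf_eq_one_iff]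
      obtain ⟨b, hb⟩ := CfsgLib.PCore.isPGroup_pCore q (G ⧸ F) ⟨π x, hx⟩
      have h1 : (x : G ⧸ F) ^ s ^ a = 1 := by rw [← QuotientGroup.mk_pow, ha, QuotientGroup.mk_one]
      have h2 : (x : G ⧸ F) ^ q ^ b = 1 := congrArg Subtype.val hb
      exact Nat.eq_one_of_dvd_coprimes (((Nat.coprime_primes hs hq).2 hsq).pow a b)
        (orderOf_dvd_of_pow_eq_one h1) (orderOf_dvd_of_pow_eq_one h2)
    -- an invariant Sylow subgroup of the layer
    have hAfix : ∀ a : Subgroup.zpowers σ, ∀ x ∈ M, (a : MulAut G) x ∈ M := by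
      rintro ⟨a, ha⟩ x hx
      obtain ⟨j, rfl⟩ := (isOfFinOrder_of_finite σ).mem_powers_iff_mem_zpowers.2 ha
      exact pow_apply_mem hMσ j hx
    have hAsol : Group.IsSolvable (Subgroup.zpowers σ) := by
      haveI : IsCyclic (Subgroup.zpowers σ) := inferInstance
      letI := IsCyclic.commGroup (α := Subgroup.zpowers σ)
      infer_instance
    have hcop : (Nat.card (Subgroup.zpowers σ)).Coprime (Nat.card G) := by
      rw [Nat.card_zpowers]
      exact Nat.Coprime.coprime_dvd_left (orderOf_dvd_of_pow_eq_one hσ)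
        ((hp.coprime_iff_not_dvd.2 hpG).pow_left _)
    obtain ⟨P, hP⟩ := FpfRankTwo.exists_invariant_sylow_le (Subgroup.zpowers σ).subtype M
      (fun a x hx => hAfix a x hx) hcop hAsol q
    set Q : Subgroup G := (P : Subgroup M).map M.subtype with hQdef
    have hQM : Q ≤ M := Subgroup.map_subtype_le _
    have hQq : IsPGroup q Q := P.2.map _
    have hQσ : ∀ x ∈ Q, σ x ∈ Q := fun x hx => hP ⟨σ, Subgroup.mem_zpowers σ⟩ x hx
    have hcent : ∀ x ∈ Q, ∀ r : ℕ, r.Prime → r ≠ q →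
        x⁻¹ * τ x ∈ Subgroup.centralizer (Cfsg.pCore r G : Set G) := by
      intro x hx r hr hrq
      haveI := Fact.mk hr
      rcases eq_or_ne Q ⊥ with hQ0 | hQ0
      · rw [hQ0, Subgroup.mem_bot] at hx
        rw [hx, map_one, inv_one, one_mul]
        exact one_mem _
      have hRr : IsPGroup r (Cfsg.pCore r G) := CfsgLib.PCore.isPGroup_pCore r G
      rcases eq_or_ne (Cfsg.pCore r G) ⊥ with hR0 | hR0
      · rw [hR0, Subgroup.mem_centralizer_iff]
        intro y hy
        rw [SetLike.mem_coe, Subgroup.mem_bot] at hy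
        rw [hy, one_mul, mul_one]
      haveI := CfsgLib.PCore.pCore_characteristic r G
      exact centralizes_pgroup hp hp2 σ hσ hfpf (prime_ne_of_dvd hpG hq hQq hQ0)
        (prime_ne_of_dvd hpG hr hRr hR0) hrq.symm Q hQq hQσ (Cfsg.pCore r G) hRr
        (characteristic_invariant _ (CfsgLib.PCore.pCore_characteristic r G) σ) x hx
    set C : Subgroup G := ⨅ r : {r : ℕ // r.Prime ∧ r ≠ q}, Subgroup.centralizer (Cfsg.pCore (r : ℕ) G : Set G)
      with hC
    haveI : C.Normal := by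
      refine Subgroup.normal_iInf_normal fun r => ?_
      haveI := CfsgLib.PCore.pCore_characteristic (r : ℕ) G
      exact Subgroup.normal_centralizer
    set N := M ⊓ C with hN
    haveI : N.Normal := by rw [hN]; infer_instance
    have hNnil : Group.IsNilpotent N := by
      have hZ : ∀ (y : N) (s : ℕ), s.Prime → s ≠ q → IsPElem s (y : G) → y ∈ Subgroup.center N := by
        intro y s hs hsq hy
        haveI := Fact.mk hs
        have h1 : (y : G) ∈ Cfsg.pCore s G := by
          refine KegelWielandt.mem_pCore_of_mem_fitting (hMq y y.2.1 s hs hsq hy) ?_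
          obtain ⟨a, ha⟩ := hy
          obtain ⟨b, -, hb⟩ := (Nat.dvd_prime_pow hs).1 (orderOf_dvd_of_pow_eq_one ha)
          exact IsPGroup.of_card (n := b) (by rw [Nat.card_zpowers, hb])
        refine Subgroup.mem_center_iff.2 fun z => Subtype.ext ?_
        have h2 : (z : G) ∈ Subgroup.centralizer (Cfsg.pCore s G : Set G) :=
          (Subgroup.mem_iInf.1 z.2.2 ⟨s, hs, hsq⟩ : _)
        exact (Subgroup.mem_centralizer_iff.1 h2 _ h1).symm
      have hq' : IsPGroup q (N ⧸ Subgroup.center N) := by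
        intro a
        induction a using QuotientGroup.induction_on with
        | H y =>
          obtain ⟨e, m, hm, hord⟩ := Nat.exists_eq_pow_mul_and_not_dvd (orderOf_pos y).ne' q hq.ne_one
          refine ⟨e, ?_⟩
          rw [← QuotientGroup.mk_pow, QuotientGroup.eq_one_iff]
          have hzm : (y ^ q ^ e) ^ m = 1 := by rw [← pow_mul, ← hord, pow_orderOf_eq_one]
          refine CfsgLib.MaxCent.mem_of_parts fun s hs j hsj => ?_
          rcases eq_or_ne s q with rfl | hsq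
          · obtain ⟨a, ha⟩ := hsj
            have h1 : ((y ^ s ^ e) ^ j) ^ m = 1 := by rw [← pow_mul, mul_comm, pow_mul, hzm, one_pow]
            have h2 : (y ^ s ^ e) ^ j = 1 := by
              rw [← orderOf_eq_one_iff]
              exact Nat.eq_one_of_dvd_coprimes ((hs.coprime_iff_not_dvd.2 hm).pow_left a)
                (orderOf_dvd_of_pow_eq_one ha) (orderOf_dvd_of_pow_eq_one h1)
            rw [h2]; exact one_mem _
          · obtain ⟨a, ha⟩ := hsj
            exact hZ _ s hs hsq ⟨a, by rw [← SubgroupClass.coe_pow, ha]; rfl⟩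
      haveI := hq'.isNilpotent
      exact Subgroup.isNilpotent_of_ker_le_center (QuotientGroup.mk' (Subgroup.center N))
        (by rw [QuotientGroup.ker_mk'])
    have hQS : Q ≤ S.comap π := by
      intro x hx
      show τF (π x) = π x
      rw [hτπ, hπ, QuotientGroup.mk'_apply, QuotientGroup.mk'_apply, QuotientGroup.eq]
      have hxN : x⁻¹ * τ x ∈ N := Subgroup.mem_inf.2
        ⟨mul_mem (inv_mem (hQM hx)) (pow_apply_mem hMσ _ (hQM hx)),
          Subgroup.mem_iInf.2 fun r => hcent x hx r r.2.1 r.2.2⟩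
      have h1 := Components.le_fittingSubgroup (inferInstance : N.Normal) hNnil hxN
      have h2 := inv_mem h1
      rwa [mul_inv_rev, inv_inv] at h2
    have hFS : F ≤ S.comap π := by
      intro x hx
      show τF (π x) = π x
      rw [hπ, QuotientGroup.mk'_apply, (QuotientGroup.eq_one_iff x).2 hx, map_one]
    have hMK : M ≤ Q ⊔ F := by
      rw [← Subgroup.relIndex_eq_one]
      have h1 : (Q ⊔ F).relIndex M ∣ Q.relIndex M := Subgroup.relIndex_dvd_of_le_left _ le_sup_left
      have h2 : (Q ⊔ F).relIndex M ∣ F.relIndex M := Subgroup.relIndex_dvd_of_le_left _ le_sup_right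
      have h3 : ¬ q ∣ Q.relIndex M := by
        have e : Q.relIndex M = (P : Subgroup M).index := by
          rw [hQdef, Subgroup.relIndex, Subgroup.subgroupOf,
            Subgroup.comap_map_eq_self_of_injective M.subtype_injective]
        rw [e]
        exact P.not_dvd_index
      have h4 : F.relIndex M = Nat.card (Cfsg.pCore q (G ⧸ F)) := by
        have e := Subgroup.relIndex_ker (K := M) π
        rw [hπ, QuotientGroup.ker_mk'] at e
        rw [e, hM, Subgroup.map_comap_eq_self_of_surjective (QuotientGroup.mk'_surjective F)]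
      obtain ⟨a, ha⟩ := IsPGroup.iff_card.1 (CfsgLib.PCore.isPGroup_pCore q (G ⧸ F))
      rw [h4, ha] at h2
      obtain ⟨b, -, hb⟩ := (Nat.dvd_prime_pow hq).1 h2
      rcases Nat.eq_zero_or_pos b with rfl | hb0
      · rw [hb, pow_zero]
      · exact absurd ((hb ▸ dvd_pow_self q hb0.ne').trans h1) h3
    intro a ha
    obtain ⟨x, rfl⟩ := QuotientGroup.mk'_surjective F a
    exact (hMK.trans (sup_le hQS hFS)) ha
  have hfit : Cfsg.fittingSubgroup (G ⧸ F) ≤ S := by
    rw [Components.fittingSubgroup_eq_iSup]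
    exact iSup_le fun q => hlayer q (Nat.prime_of_mem_primeFactors q.2)
  haveI : (Cfsg.fittingSubgroup (G ⧸ F)).Normal := Components.fittingSubgroup_normal
  set d := (π g)⁻¹ * τF (π g) with hd
  have hdC : d ∈ Cfsg.fittingSubgroup (G ⧸ F) := by
    refine Hall.centralizer_fitting_le (Subgroup.mem_centralizer_iff.2 fun f hf => ?_)
    have hff : τF f = f := hfit hf
    have h : τF (π g * f * (π g)⁻¹) = π g * f * (π g)⁻¹ :=
      hfit ((inferInstance : (Cfsg.fittingSubgroup (G ⧸ F)).Normal).conj_mem f hf (π g))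
    rw [map_mul, map_mul, map_inv, hff] at h
    rw [hd]
    calc f * ((π g)⁻¹ * τF (π g)) = (π g)⁻¹ * (π g * f * (π g)⁻¹) * τF (π g) := by group
      _ = (π g)⁻¹ * (τF (π g) * f * (τF (π g))⁻¹) * τF (π g) := by rw [h]
      _ = (π g)⁻¹ * τF (π g) * f := by group
  have hdfix : τF d = d := hfit hdC
  have hit : ∀ l : ℕ, (τF ^ l) (π g) = π g * d ^ l := by
    intro l
    induction l with
    | zero => simp
    | succ l IH =>
      rw [pow_succ', MulAut.mul_apply, IH, map_mul, map_pow, hdfix]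
      calc τF (π g) * d ^ l = π g * d * d ^ l := by rw [hd, mul_inv_cancel_left]
        _ = π g * d ^ (l + 1) := by rw [mul_assoc, ← pow_succ']
  have h1 := hit p
  rw [hτF, ← pow_mul, ← pow_succ, hσF, quotAut_pow_eq_one F hFσ hσ, MulAut.one_apply, left_eq_mul] at h1
  have hd1 : d = 1 := by
    rw [← orderOf_eq_one_iff]
    rcases (Nat.dvd_prime hp).1 (orderOf_dvd_of_pow_eq_one h1) with h | h
    · exact h
    · exact absurd ((h ▸ orderOf_dvd_natCard d).trans (Subgroup.card_quotient_dvd_card F)) hpG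
  rw [hd, hτπ, ← map_inv, ← map_mul, hπ, QuotientGroup.mk'_apply, QuotientGroup.eq_one_iff] at hd1
  exact hd1

end CfsgLib.ShultGross
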