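import Mathlib

/-!
Divisibility of `2 ^ e - 1` by a power of a prime `p` with `p ^ m = 2 ^ k + 1`.
-/

set_option autoImplicit false
set_option linter.style.haveILetI false

namespace CfsgLib.ShultGross

theorem two_mul_pow_dvd {p k m i e : ℕ} (hp : p.Prime) (hp2 : p ≠ 2) (hk : 1 ≤ k) (hm : 1 ≤ m)
    (hpm : p ^ m = 2 ^ k + 1) (h : p ^ (m + i) ∣ 2 ^ e - 1) : 2 * k * p ^ i ∣ e := by
  haveI := Fact.mk hp
  have hpm1 : 1 < p ^ m := Nat.one_lt_pow (by omega) hp.one_lt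
  haveI : NeZero (p ^ m) := ⟨by omega⟩
  haveI : Fact (1 < p ^ m) := ⟨hpm1⟩
  have hk2 : 2 ≤ 2 ^ k := Nat.le_self_pow (by omega) 2
  -- `2 ^ k` is `-1` modulo `p ^ m`
  have hneg : (2 : ZMod (p ^ m)) ^ k + 1 = 0 := by
    have := ZMod.natCast_self (p ^ m)
    rw [show ((p ^ m : ℕ) : ZMod (p ^ m)) = ((2 ^ k + 1 : ℕ) : ZMod (p ^ m)) from congrArg _ hpm] at this
    push_cast at this
    exact this
  have h2k : (2 : ZMod (p ^ m)) ^ (2 * k) = 1 := by
    rw [mul_comm, pow_mul, show (2 : ZMod (p ^ m)) ^ k = -1 from eq_neg_of_add_eq_zero_left hneg]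
    norm_num
  have he : (2 : ZMod (p ^ m)) ^ e = 1 := by
    have h1 : p ^ m ∣ 2 ^ e - 1 := (pow_dvd_pow p (Nat.le_add_right m i)).trans h
    have h2 := (ZMod.natCast_eq_zero_iff _ _).2 h1 |>.symm
    rw [Nat.cast_sub Nat.one_le_two_pow] at h2
    push_cast at h2
    exact sub_eq_zero.1 h2.symm
  have hr : (2 : ZMod (p ^ m)) ^ (e % (2 * k)) = 1 := by
    rw [← Nat.mod_add_div e (2 * k), pow_add, pow_mul, h2k, one_pow, mul_one] at he
    exact he
  set r := e % (2 * k) with hrdef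
  have hrlt : r < 2 * k := Nat.mod_lt _ (by omega)
  have hr0 : r = 0 := by
    by_contra hne
    rcases le_or_gt r k with hle | hlt
    · have h1 : ((2 ^ r : ℕ) : ZMod (p ^ m)) = ((1 : ℕ) : ZMod (p ^ m)) := by push_cast; exact hr
      have h3 : (2 : ℕ) ^ r ≤ 2 ^ k := Nat.pow_le_pow_right (by norm_num) hle
      have h4 : (2 : ℕ) ≤ 2 ^ r := Nat.le_self_pow hne 2
      rw [ZMod.natCast_eq_natCast_iff', Nat.mod_eq_of_lt (by omega), Nat.mod_eq_of_lt hpm1] at h1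
      omega
    · have h1 : ((2 ^ (r - k) + 1 : ℕ) : ZMod (p ^ m)) = 0 := by
        push_cast
        have e1 : (2 : ZMod (p ^ m)) ^ r = 2 ^ k * 2 ^ (r - k) := by
          rw [← pow_add]; congr 1; omega
        rw [eq_neg_of_add_eq_zero_left hneg, neg_one_mul, hr] at e1
        rw [e1]; ring
      have h3 : (2 : ℕ) ^ (r - k) < 2 ^ k := Nat.pow_lt_pow_right (by norm_num) (by omega)
      rw [ZMod.natCast_eq_zero_iff] at h1
      have := Nat.le_of_dvd (Nat.succ_pos _) h1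
      omega
  obtain ⟨f, rfl⟩ : 2 * k ∣ e := Nat.dvd_of_mod_eq_zero hr0
  refine Nat.mul_dvd_mul_left _ ?_
  rcases Nat.eq_zero_or_pos f with rfl | hf
  · exact dvd_zero _
  have hodd : Odd p := hp.odd_of_ne_two hp2
  have hfac : 2 ^ (2 * k) - 1 = p ^ m * (2 ^ k - 1) := by
    rw [hpm, mul_comm 2 k, pow_mul, ← Nat.sq_sub_sq, one_pow]
  have hp2d : ¬ p ∣ 2 ^ k - 1 := by
    intro hd
    have hpk : p ∣ 2 ^ k + 1 := hpm ▸ dvd_pow_self p (by omega)
    have h2d : p ∣ 2 := by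
      have := Nat.dvd_sub hpk hd
      rwa [show 2 ^ k + 1 - (2 ^ k - 1) = 2 by omega] at this
    exact hp2 ((Nat.prime_dvd_prime_iff_eq hp Nat.prime_two).1 h2d)
  have hlte := Nat.emultiplicity_pow_sub_pow hp hodd (x := 2 ^ (2 * k)) (y := 1)
    (by rw [hfac]; exact Dvd.dvd.mul_right (dvd_pow_self p (by omega)) _)
    (fun hd => hp2 ((Nat.prime_dvd_prime_iff_eq hp Nat.prime_two).1 (hp.dvd_of_dvd_pow hd))) f
  rw [one_pow, ← pow_mul, hfac, emultiplicity_mul (Nat.prime_iff.1 hp),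
    emultiplicity_pow_self_of_prime (Nat.prime_iff.1 hp), emultiplicity_eq_zero.2 hp2d, add_zero] at hlte
  have hle := le_emultiplicity_of_pow_dvd h
  rw [hlte, Nat.cast_add] at hle
  refine pow_dvd_of_le_emultiplicity ?_
  exact (ENat.add_le_add_iff_left (ENat.natCast_ne_top m)).1 hle

end CfsgLib.ShultGross
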