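import Cfsg.Agent.HallHigmanB.Core

/-!
An endomorphism of finite order without fixed vectors that permutes a basis of the endomorphism
algebra, up to scalars and freely outside of the identity, lives in dimension one less than its
order, or in dimension one.
-/

set_option autoImplicit false
set_option linter.style.haveILetI false

namespace CfsgLib.ShultGross

open Finset

variable {k : Type*} [Field k]

theorem finrank_ker_of_basis {M : Type*} [AddCommGroup M] [Module k M] {ι : Type*} [Fintype ι]
    [DecidableEq k] (b : Module.Basis ι k M) (L : M →ₗ[k] M) (l : ι → k) (hL : ∀ i, L (b i) = l i • b i) :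
    Module.finrank k (LinearMap.ker L) = (univ.filter fun i => l i = 0).card := by
  classical
  have hrepr : ∀ x i, b.repr (L x) i = l i * b.repr x i := by
    intro x i
    have h : (b.coord i).comp L = l i • b.coord i := b.ext fun j => by
      simp only [LinearMap.comp_apply, LinearMap.smul_apply, hL, map_smul, Module.Basis.coord_apply,
        b.repr_self, smul_eq_mul]
      rcases eq_or_ne j i with rfl | hne
      · rfl
      · simp [Finsupp.single_eq_of_ne hne.symm]
    exact LinearMap.congr_fun h x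
  have hker : LinearMap.ker L = Submodule.span k (Set.range fun i : {i // l i = 0} => b i) := by
    refine le_antisymm (fun x hx => ?_) (Submodule.span_le.2 ?_)
    · rw [← b.sum_repr x]
      refine Submodule.sum_mem _ fun i _ => ?_
      by_cases hi : l i = 0
      · exact Submodule.smul_mem _ _ (Submodule.subset_span ⟨⟨i, hi⟩, rfl⟩)
      · have h0 := hrepr x i
        rw [LinearMap.mem_ker.1 hx, map_zero, Finsupp.zero_apply] at h0
        rw [(mul_eq_zero.1 h0.symm).resolve_left hi, zero_smul]
        exact zero_mem _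
    · rintro _ ⟨i, rfl⟩
      show L (b i) = 0
      rw [hL, i.2, zero_smul]
  rw [hker, show (fun i : {i // l i = 0} => b i) = b ∘ Subtype.val from rfl,
    finrank_span_eq_card (b.linearIndependent.comp _ Subtype.val_injective), Fintype.card_subtype]

theorem eq_of_count {α : Type*} [DecidableEq α] (S : Finset α) (a : α → ℕ) (r h : ℕ)
    (hpos : ∀ x ∈ S, 0 < a x) (hS : S.card + 1 ≤ h) (hne : S.Nonempty)
    (hsq : ∑ x ∈ S, a x ^ 2 = r + 1) (htot : (∑ x ∈ S, a x) ^ 2 = h * r + 1) :
    (∑ x ∈ S, a x = h - 1 ∧ S.card + 1 = h) ∨ ∑ x ∈ S, a x = 1 := by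
  have hcs : (∑ x ∈ S, a x) ^ 2 ≤ S.card * ∑ x ∈ S, a x ^ 2 := sq_sum_le_card_mul_sum_sq
  have hA : S.card ≤ ∑ x ∈ S, a x ^ 2 := by
    rw [card_eq_sum_ones]
    exact Finset.sum_le_sum fun x hx => Nat.one_le_pow _ _ (hpos x hx)
  obtain ⟨d, rfl⟩ : ∃ d, h = S.card + d + 1 := ⟨h - S.card - 1, by omega⟩
  rw [hsq] at hA hcs
  have hpos' : 1 ≤ S.card := hne.card_pos
  rcases Nat.eq_zero_or_pos d with rfl | hd
  · left
    have hr : r + 1 = S.card := by nlinarith
    have h1 : ∀ x ∈ S, a x ^ 2 = 1 := by
      intro x hx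
      by_contra h2
      have h3 : ∑ _y ∈ S, 1 < ∑ y ∈ S, a y ^ 2 :=
        Finset.sum_lt_sum (fun y hy => Nat.one_le_pow _ _ (hpos y hy))
          ⟨x, hx, lt_of_le_of_ne (Nat.one_le_pow _ _ (hpos x hx)) (Ne.symm h2)⟩
      rw [← card_eq_sum_ones, hsq, hr] at h3
      omega
    refine ⟨?_, rfl⟩
    rw [add_zero, Nat.add_sub_cancel, card_eq_sum_ones]
    exact Finset.sum_congr rfl fun x hx => (pow_eq_one_iff.1 (h1 x hx)).resolve_right two_ne_zero
  · right
    have hN : S.card = 1 := by
      by_contra hN1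
      have h1 : (d + 1) * r + 1 ≤ S.card := by nlinarith
      have h2 : r = 0 := by nlinarith
      omega
    obtain ⟨x, hx⟩ := Finset.card_eq_one.1 hN
    subst hx
    simp only [sum_singleton, card_singleton] at htot hsq ⊢
    nlinarith

variable [IsAlgClosed k] {W : Type*} [AddCommGroup W] [Module k W] [FiniteDimensional k W]

theorem exists_eigenbasis {h : ℕ} (hk : (h : k) ≠ 0) (T : Module.End k W) (hT : T ^ h = 1) :
    ∃ s : Set W, ∃ _ : Fintype ↥s, ∃ e : Module.Basis ↥s k W, ∃ ev : ↥s → k,
      (∀ i, T (e i) = ev i • e i) ∧ ∀ i, ev i ^ h = 1 := by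
  classical
  have hh : h ≠ 0 := fun h0 => hk (by rw [h0, Nat.cast_zero])
  have hsemi : T.IsSemisimple := by
    refine Module.End.isSemisimple_of_squarefree_aeval_eq_zero (p := Polynomial.X ^ h - Polynomial.C (1 : k))
      (Polynomial.separable_X_pow_sub_C 1 hk one_ne_zero).squarefree ?_
    simp [hT]
  have htop : (⨆ μ : k, T.eigenspace μ) = ⊤ := by
    rw [← Module.End.iSup_maxGenEigenspace_eq_top T]
    exact iSup_congr fun μ => (hsemi.isFinitelySemisimple.maxGenEigenspace_eq_eigenspace μ).symm
  set E : Set W := {v | v ≠ 0 ∧ ∃ μ : k, T v = μ • v} with hE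
  have hspanE : Submodule.span k E = ⊤ := by
    rw [← top_le_iff, ← htop]
    refine iSup_le fun μ v hv => ?_
    rcases eq_or_ne v 0 with rfl | hv0
    · exact zero_mem _
    · exact Submodule.subset_span ⟨hv0, μ, Module.End.mem_eigenspace_iff.1 hv⟩
  obtain ⟨s, hsE, hspan, hli⟩ := exists_linearIndependent k E
  haveI : Fintype ↥s := hli.setFinite.fintype
  let e : Module.Basis ↥s k W := Module.Basis.mk hli (by rw [Subtype.range_coe, hspan, hspanE])
  have he : ∀ i, e i = (i : W) := fun i => Module.Basis.mk_apply _ _ i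
  choose ev hev using fun i : ↥s => (hsE i.2).2
  refine ⟨s, inferInstance, e, ev, fun i => by rw [he]; exact hev i, fun i => ?_⟩
  have hpow : ∀ j : ℕ, (T ^ j) (i : W) = ev i ^ j • (i : W) := by
    intro j
    induction j with
    | zero => simp
    | succ j IH =>
      rw [pow_succ', Module.End.mul_apply, IH, map_smul, hev, smul_smul, pow_succ]
  have h1 := hpow h
  rw [hT, Module.End.one_apply] at h1
  by_contra hne
  have h2 : (ev i ^ h - 1) • (i : W) = 0 := by rw [sub_smul, one_smul, ← h1, sub_self]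
  rcases smul_eq_zero.1 h2 with h3 | h3
  · exact hne (sub_eq_zero.1 h3)
  · exact (hsE i.2).1 h3

theorem dim_eq [Nontrivial W] {h : ℕ} (hk : (h : k) ≠ 0) (T : Module.End k W) (hT : T ^ h = 1)
    (hfpf : ∀ w, T w = w → w = 0) {A : Type*} [Fintype A] (b : Module.Basis A k (Module.End k W)) (a₀ : A)
    (hb₀ : b a₀ = 1) (π : Equiv.Perm A) (hπ : π a₀ = a₀) (hπh : ∀ a, (π ^ h) a = a)
    (hfree : ∀ a, a ≠ a₀ → ∀ i, 0 < i → i < h → (π ^ i) a ≠ a)
    (hTb : ∀ a, ∃ c : k, T * b a = c • (b (π a) * T)) :
    (Module.finrank k W = h - 1 ∧ ∀ ω : k, ω ^ h = 1 → ω ≠ 1 → ∃ w : W, w ≠ 0 ∧ T w = ω • w) ∨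
      Module.finrank k W = 1 := by
  classical
  have hh : h ≠ 0 := fun h0 => hk (by rw [h0, Nat.cast_zero])
  have hh0 : 0 < h := Nat.pos_of_ne_zero hh
  set u : (Module.End k W)ˣ := Units.ofPowEqOne T h hT hh with hu
  have huT : (u : Module.End k W) = T := rfl
  set C : Module.End k W →ₗ[k] Module.End k W :=
    (LinearMap.mulLeft k T).comp (LinearMap.mulRight k (↑u⁻¹ : Module.End k W)) with hCdef
  have hC : ∀ f, C f = T * f * ↑u⁻¹ := fun f => by simp [hCdef, mul_assoc]
  choose c hc using hTb
  have hCb : ∀ a, C (b a) = c a • b (π a) := fun a => by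
    rw [hC, hc, smul_mul_assoc, mul_assoc, ← huT, Units.mul_inv, mul_one]
  -- orbits of `π` outside of `a₀`
  obtain ⟨R, hRS, hsum⟩ := HallHigmanB.sum_orbits π h hh0 hπh (fun a => ({a} : Multiset A)) (univ.erase a₀)
    (fun x hx => mem_erase.2 ⟨fun hx0 => (mem_erase.1 hx).1 (π.injective (hx0.trans hπ.symm)), mem_univ _⟩)
    (fun x hx => hfree x (mem_erase.1 hx).1)
  have hcard : (univ.erase a₀).card = h * R.card := by
    have := congrArg Multiset.card hsum
    simp [mul_comm] at this ⊢
    exact this
  have himg : (R ×ˢ range h).image (fun x => (π ^ x.2) x.1) = univ.erase a₀ := by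
    ext a
    have h1 : a ∈ ∑ x ∈ univ.erase a₀, ({x} : Multiset A) ↔ a ∈ univ.erase a₀ := by
      rw [Finset.sum_multiset_singleton, Finset.mem_val]
    rw [← h1, hsum]
    simp [Multiset.mem_sum, eq_comm, and_assoc]
  have hinj : Set.InjOn (fun x : A × ℕ => (π ^ x.2) x.1) ↑(R ×ˢ range h) := by
    refine Finset.injOn_of_card_image_eq ?_
    rw [himg, hcard, card_product, card_range, mul_comm]
  have horbit : ∀ r ∈ R, ∀ r' ∈ R, ∀ i < h, (π ^ i) r = r' → r = r' ∧ i = 0 := by
    intro r hr r' hr' i hi he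
    have := hinj (x₁ := (r, i)) (x₂ := (r', 0)) (mem_coe.2 (mem_product.2 ⟨hr, mem_range.2 hi⟩))
      (mem_coe.2 (mem_product.2 ⟨hr', mem_range.2 hh0⟩)) (by simpa using he)
    simpa using this
  have hnot0 : ∀ r ∈ R, ∀ i, (π ^ i) r ≠ a₀ := by
    intro r hr i he
    have h1 : (π ^ i) a₀ = a₀ := by
      clear he
      induction i with
      | zero => rfl
      | succ i IH => rw [pow_succ', Equiv.Perm.mul_apply, IH, hπ]
    exact (mem_erase.1 (hRS hr)).1 ((π ^ i).injective (he.trans h1.symm))
  set L : Module.End k W →ₗ[k] Module.End k W := LinearMap.mulLeft k T - LinearMap.mulRight k T with hLdef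
  have hL : ∀ f, L f = T * f - f * T := fun f => rfl
  -- the centraliser of `T` in coordinates
  have hfix : ∀ f, f ∈ LinearMap.ker L → ∀ a, b.repr f (π a) = c a * b.repr f a := by
    intro f hf a
    rw [LinearMap.mem_ker, hL, sub_eq_zero] at hf
    have hCf : C f = f := by rw [hC, hf, mul_assoc, ← huT, Units.mul_inv, mul_one]
    have h1 : (b.coord (π a)).comp C = c a • b.coord a := b.ext fun a' => by
      simp only [LinearMap.comp_apply, LinearMap.smul_apply, hCb, map_smul, Module.Basis.coord_apply,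
        b.repr_self, smul_eq_mul]
      rcases eq_or_ne a' a with rfl | hne
      · simp
      · simp [Finsupp.single_eq_of_ne hne.symm,
          Finsupp.single_eq_of_ne (fun e => hne (π.injective e.symm))]
    conv_lhs => rw [← hCf]
    exact LinearMap.congr_fun h1 f
  let g : A → ℕ → Module.End k W := fun r i => ↑(u ^ i) * b r * ↑(u ^ i)⁻¹
  have hg : ∀ r i, ∃ d : k, g r i = d • b ((π ^ i) r) := by
    intro r i
    induction i with
    | zero => exact ⟨1, by simp [g]⟩
    | succ i IH =>
      obtain ⟨d, hd⟩ := IH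
      refine ⟨d * c ((π ^ i) r), ?_⟩
      have : g r (i + 1) = C (g r i) := by
        rw [hC]; simp only [g, pow_succ', Units.val_mul, mul_inv_rev, huT, mul_assoc]
      rw [this, hd, map_smul, hCb, smul_smul, pow_succ', Equiv.Perm.mul_apply]
  have hgsum : ∀ r, (∑ i ∈ range h, g r i) ∈ LinearMap.ker L := by
    intro r
    have hgh : g r h = g r 0 := by
      have : u ^ h = 1 := Units.ext (by rw [Units.val_pow_eq_pow_val, huT, hT, Units.val_one])
      simp only [g, this, pow_zero]
    have hshift : ∑ i ∈ range h, g r (i + 1) = ∑ i ∈ range h, g r i := by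
      have h1 := Finset.sum_range_succ' (g r) h
      rw [Finset.sum_range_succ, hgh] at h1
      exact (add_right_cancel h1).symm
    rw [LinearMap.mem_ker, hL, sub_eq_zero, Finset.mul_sum]
    conv_rhs => rw [← hshift, Finset.sum_mul]
    refine Finset.sum_congr rfl fun i _ => ?_
    simp only [g, pow_succ', Units.val_mul, mul_inv_rev, mul_assoc, ← huT, Units.inv_mul, mul_one]
  let Φ : ↥(LinearMap.ker L) →ₗ[k] (Option ↥R → k) :=
    (LinearMap.pi fun o => b.coord (o.elim a₀ Subtype.val)).comp (LinearMap.ker L).subtype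
  have hΦinj : Function.Injective Φ := by
    rw [injective_iff_map_eq_zero]
    intro f hf
    have h0 : ∀ o : Option ↥R, b.repr (f : Module.End k W) (o.elim a₀ Subtype.val) = 0 :=
      fun o => congrFun hf o
    have hall : ∀ a, b.repr (f : Module.End k W) a = 0 := by
      intro a
      rcases eq_or_ne a a₀ with rfl | ha
      · exact h0 none
      · have hmem : a ∈ univ.erase a₀ := mem_erase.2 ⟨ha, mem_univ _⟩
        rw [← himg, mem_image] at hmem
        obtain ⟨⟨r, i⟩, hri, rfl⟩ := hmem
        have hr : r ∈ R := (mem_product.1 hri).1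
        clear hri ha
        induction i with
        | zero => exact h0 (some ⟨r, hr⟩)
        | succ i IH =>
          show b.repr (f : Module.End k W) ((π ^ (i + 1)) r) = 0
          rw [pow_succ', Equiv.Perm.mul_apply, hfix _ f.2, IH, mul_zero]
    exact Subtype.ext (b.repr.injective (Finsupp.ext fun a => by rw [hall a]; simp))
  have hΦsurj : Function.Surjective Φ := by
    intro y
    have hmem : y none • (1 : Module.End k W) + ∑ r : ↥R, y (some r) • ∑ i ∈ range h, g r i
        ∈ LinearMap.ker L := by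
      refine add_mem (Submodule.smul_mem _ _ ?_) (Submodule.sum_mem _ fun r _ => Submodule.smul_mem _ _ (hgsum r))
      simp [hL]
    refine ⟨⟨_, hmem⟩, funext fun o => ?_⟩
    show b.coord (o.elim a₀ Subtype.val) (y none • (1 : Module.End k W) + _) = y o
    have hzero : ∀ (r : ↥R) (a : A), (∀ i < h, (π ^ i) (r : A) ≠ a) →
        b.coord a (∑ i ∈ range h, g r i) = 0 := by
      intro r a ha
      rw [map_sum]
      refine Finset.sum_eq_zero fun i hi => ?_
      obtain ⟨d, hd⟩ := hg r i
      rw [hd, map_smul, Module.Basis.coord_apply, b.repr_self,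
        Finsupp.single_eq_of_ne (ha i (mem_range.1 hi)).symm, smul_zero]
    have hone : ∀ r : ↥R, b.coord (r : A) (∑ i ∈ range h, g r i) = 1 := by
      intro r
      rw [map_sum, Finset.sum_eq_single 0]
      · simp [g, Module.Basis.coord_apply]
      · intro i hi hi0
        obtain ⟨d, hd⟩ := hg r i
        rw [hd, map_smul, Module.Basis.coord_apply, b.repr_self,
          Finsupp.single_eq_of_ne (fun e => hi0 (horbit r r.2 r r.2 i (mem_range.1 hi) e.symm).2), smul_zero]
      · intro h0; exact absurd (mem_range.2 hh0) h0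
    rw [map_add, map_smul, map_sum, ← hb₀]
    simp only [map_smul, smul_eq_mul]
    cases o with
    | none =>
      simp only [Option.elim, Module.Basis.coord_apply, b.repr_self, Finsupp.single_eq_same, mul_one]
      rw [Finset.sum_eq_zero fun r _ => ?_, add_zero]
      rw [← Module.Basis.coord_apply, hzero r a₀ fun i _ => hnot0 r r.2 i, mul_zero]
    | some r₀ =>
      simp only [Option.elim]
      rw [Finset.sum_eq_single r₀, hone, mul_one]
      · rw [Module.Basis.coord_apply, b.repr_self,
          Finsupp.single_eq_of_ne (mem_erase.1 (hRS r₀.2)).1, mul_zero, zero_add]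
      · intro r _ hne
        rw [hzero r r₀ fun i hi e => hne (Subtype.ext (horbit r r.2 r₀ r₀.2 i hi e).1), mul_zero]
      · intro h0; exact absurd (mem_univ _) h0
  have hdim : Module.finrank k (LinearMap.ker L) = R.card + 1 := by
    rw [(LinearEquiv.ofBijective Φ ⟨hΦinj, hΦsurj⟩).finrank_eq, Module.finrank_fintype_fun_eq_card,
      Fintype.card_option, Fintype.card_coe]
  have htot : Module.finrank k W ^ 2 = h * R.card + 1 := by
    have h1 := Module.finrank_eq_card_basis b
    rw [show Module.finrank k (Module.End k W) = Module.finrank k W * Module.finrank k W from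
      Module.finrank_linearMap k k W W, ← sq] at h1
    rw [h1, ← hcard, card_erase_of_mem (mem_univ _), card_univ]
    have := Fintype.card_pos_iff.2 ⟨a₀⟩
    omega
  -- the centraliser of `T` from an eigenbasis
  obtain ⟨s, _, e, ev, hev, hevh⟩ := exists_eigenbasis hk T hT
  have hLe : ∀ ij : ↥s × ↥s, L (e.end ij) = (ev ij.1 - ev ij.2) • e.end ij := fun ij => by
    have := e.lie_end_of_apply_eq_smul ev T hev ij.1 ij.2
    rw [Ring.lie_def] at this
    rw [hL]
    exact this
  have hev1 : ∀ i, ev i ≠ 1 := fun i h1 => e.ne_zero i (hfpf _ (by rw [hev, h1, one_smul]))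
  set S := univ.image ev with hS
  set a : k → ℕ := fun μ => (univ.filter fun i => ev i = μ).card with ha
  have hsumA : ∑ μ ∈ S, a μ = Module.finrank k W := by
    rw [Module.finrank_eq_card_basis e, ← card_univ]
    exact (card_eq_sum_card_fiberwise fun i _ => mem_image_of_mem _ (mem_univ i)).symm
  have hsq : ∑ μ ∈ S, a μ ^ 2 = R.card + 1 := by
    rw [← hdim, finrank_ker_of_basis e.end L _ hLe,
      card_eq_sum_card_fiberwise (t := S) (f := fun ij : ↥s × ↥s => ev ij.1)
        (fun ij _ => mem_image_of_mem _ (mem_univ ij.1))]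
    refine Finset.sum_congr rfl fun μ _ => ?_
    rw [sq, ha, ← card_product]
    congr 1
    ext ⟨i, j⟩
    simp only [mem_filter, mem_univ, true_and, mem_product, sub_eq_zero]
    constructor
    · rintro ⟨hi, hj⟩; exact ⟨hi.trans hj.symm, hi⟩
    · rintro ⟨hij, hi⟩; exact ⟨hi, hij ▸ hi⟩
  have h1 : insert 1 S ⊆ (Polynomial.nthRoots h (1 : k)).toFinset := by
    intro μ hμ
    rw [Multiset.mem_toFinset, Polynomial.mem_nthRoots hh0]
    rcases mem_insert.1 hμ with rfl | hμ
    · rw [one_pow]
    · obtain ⟨i, -, rfl⟩ := mem_image.1 hμ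
      exact hevh i
  have hins : (insert 1 S).card = S.card + 1 := card_insert_of_notMem (fun h1 => by
    obtain ⟨i, -, hi⟩ := mem_image.1 h1
    exact hev1 i hi)
  have hroots : (Polynomial.nthRoots h (1 : k)).toFinset.card ≤ h :=
    (Multiset.toFinset_card_le _).trans (Polynomial.card_nthRoots h 1)
  have hScard : S.card + 1 ≤ h := hins ▸ (card_le_card h1).trans hroots
  haveI : Nonempty ↥s := e.index_nonempty
  have hres := eq_of_count S a R.card h (fun μ hμ => by
    obtain ⟨i, -, rfl⟩ := mem_image.1 hμ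
    exact card_pos.2 ⟨i, by simp⟩) hScard (univ_nonempty.image ev) hsq (by rw [hsumA]; exact htot)
  rw [hsumA] at hres
  refine hres.imp_left fun ⟨hd, hS1⟩ => ⟨hd, fun ω hω hω1 => ?_⟩
  have hmem : ω ∈ insert 1 S := by
    rw [Finset.eq_of_subset_of_card_le h1 (by omega), Multiset.mem_toFinset, Polynomial.mem_nthRoots hh0]
    exact hω
  obtain ⟨i, -, rfl⟩ := mem_image.1 ((mem_insert.1 hmem).resolve_left hω1)
  exact ⟨e i, e.ne_zero i, hev i⟩

end CfsgLib.ShultGross
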