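import Mathlib

/-!
Automorphisms without fixed points on quotients.
-/

set_option autoImplicit false
set_option linter.style.haveILetI false
set_option linter.unusedSectionVars false

namespace CfsgLib.ShultGross

variable {G : Type*} [Group G] [Finite G]

theorem map_eq_self (σ : MulAut G) (N : Subgroup G) (hN : ∀ x ∈ N, σ x ∈ N) : N.map σ.toMonoidHom = N := by
  refine Subgroup.eq_of_le_of_card_ge ?_ ?_
  · rintro _ ⟨x, hx, rfl⟩; exact hN x hx
  · rw [Subgroup.card_map_of_injective (f := σ.toMonoidHom) σ.injective]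

theorem exists_displacement (σ : MulAut G) (hfpf : ∀ g, σ g = g → g = 1) (N : Subgroup G)
    (hN : ∀ x ∈ N, σ x ∈ N) {y : G} (hy : y ∈ N) : ∃ m ∈ N, m⁻¹ * σ m = y := by
  have hinj : Function.Injective fun m : N => (⟨(m : G)⁻¹ * σ m, mul_mem (inv_mem m.2) (hN m m.2)⟩ : N) := by
    intro a b h
    have h1 : (a : G)⁻¹ * σ a = (b : G)⁻¹ * σ b := congrArg Subtype.val h
    have h2 : σ ((b : G) * (a : G)⁻¹) = (b : G) * (a : G)⁻¹ := by
      rw [map_mul, map_inv]
      calc σ (b : G) * (σ (a : G))⁻¹ = (b : G) * ((b : G)⁻¹ * σ b) * (σ (a : G))⁻¹ := by group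
        _ = (b : G) * ((a : G)⁻¹ * σ a) * (σ (a : G))⁻¹ := by rw [h1]
        _ = (b : G) * (a : G)⁻¹ := by group
    exact Subtype.ext (mul_inv_eq_one.1 (hfpf _ h2)).symm
  obtain ⟨m, hm⟩ := Finite.injective_iff_surjective.1 hinj ⟨y, hy⟩
  exact ⟨m, m.2, congrArg Subtype.val hm⟩

theorem mem_of_displacement_mem (σ : MulAut G) (hfpf : ∀ g, σ g = g → g = 1) (N : Subgroup G)
    (hN : ∀ x ∈ N, σ x ∈ N) {x : G} (hx : x⁻¹ * σ x ∈ N) : x ∈ N := by
  obtain ⟨m, hm, h1⟩ := exists_displacement σ hfpf N hN hx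
  have h2 : σ (x * m⁻¹) = x * m⁻¹ := by
    rw [map_mul, map_inv]
    calc σ x * (σ m)⁻¹ = x * (x⁻¹ * σ x) * (σ m)⁻¹ := by group
      _ = x * (m⁻¹ * σ m) * (σ m)⁻¹ := by rw [h1]
      _ = x * m⁻¹ := by group
  rw [mul_inv_eq_one.1 (hfpf _ h2)]
  exact hm

/-- The automorphism induced on the quotient by an invariant normal subgroup. -/
noncomputable def quotAut (σ : MulAut G) (N : Subgroup G) [N.Normal] (hN : ∀ x ∈ N, σ x ∈ N) : MulAut (G ⧸ N) :=
  QuotientGroup.congr N N σ (map_eq_self σ N hN)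

theorem quotAut_mk (σ : MulAut G) (N : Subgroup G) [N.Normal] (hN : ∀ x ∈ N, σ x ∈ N) (x : G) :
    quotAut σ N hN (x : G ⧸ N) = ((σ x : G) : G ⧸ N) :=
  QuotientGroup.congr_mk' N N σ (map_eq_self σ N hN) x

theorem quotAut_pow_mk (σ : MulAut G) (N : Subgroup G) [N.Normal] (hN : ∀ x ∈ N, σ x ∈ N) (j : ℕ) (x : G) :
    (quotAut σ N hN ^ j) (x : G ⧸ N) = (((σ ^ j) x : G) : G ⧸ N) := by
  induction j generalizing x with
  | zero => rfl
  | succ j IH => rw [pow_succ', MulAut.mul_apply, IH, quotAut_mk, pow_succ', MulAut.mul_apply]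

theorem quotAut_pow_eq_one {σ : MulAut G} (N : Subgroup G) [N.Normal] (hN : ∀ x ∈ N, σ x ∈ N) {j : ℕ}
    (h : σ ^ j = 1) : quotAut σ N hN ^ j = 1 := by
  refine MulEquiv.ext fun a => ?_
  induction a using QuotientGroup.induction_on with
  | H x => rw [quotAut_pow_mk, h]; rfl

theorem quotAut_fpf (σ : MulAut G) (N : Subgroup G) [N.Normal] (hN : ∀ x ∈ N, σ x ∈ N)
    (h : ∀ x, x⁻¹ * σ x ∈ N → x ∈ N) : ∀ a, quotAut σ N hN a = a → a = 1 := by
  intro a
  induction a using QuotientGroup.induction_on with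
  | H x =>
    intro ha
    rw [quotAut_mk, QuotientGroup.eq] at ha
    rw [QuotientGroup.eq_one_iff]
    refine h x ?_
    have h1 := inv_mem ha
    rwa [mul_inv_rev, inv_inv] at h1

theorem perm_pow_apply {A : Type*} [Mul A] (σ : MulAut A) (j : ℕ) (a : A) :
    ((σ.toEquiv : Equiv.Perm A) ^ j) a = (σ ^ j) a := by
  induction j with
  | zero => rfl
  | succ j IH => rw [pow_succ', Equiv.Perm.mul_apply, IH, pow_succ', MulAut.mul_apply]; rfl

theorem fixed_of_pow_fixed {A : Type*} [Mul A] (σ : MulAut A) {p m i : ℕ} (hp : p.Prime)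
    (hσ : σ ^ p ^ (m + 1) = 1) (hi0 : 0 < i) (hi : i < p ^ (m + 1)) {a : A} (ha : (σ ^ i) a = a) :
    (σ ^ p ^ m) a = a := by
  have hper : ∀ j, Function.IsPeriodicPt (⇑(σ.toEquiv : Equiv.Perm A)) j a ↔ (σ ^ j) a = a := fun j => by
    rw [← perm_pow_apply, Equiv.Perm.coe_pow]; rfl
  have h1 : Function.IsPeriodicPt (⇑(σ.toEquiv : Equiv.Perm A)) (p ^ (m + 1)) a :=
    (hper _).2 (by rw [hσ]; rfl)
  obtain ⟨t, ht, hmin⟩ := (Nat.dvd_prime_pow hp).1 h1.minimalPeriod_dvd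
  have hle := Nat.le_of_dvd hi0 ((hper i).2 ha).minimalPeriod_dvd
  have htm : t ≤ m := by
    by_contra hlt
    obtain rfl : t = m + 1 := by omega
    omega
  refine (hper _).1 ((Function.isPeriodicPt_minimalPeriod _ a).trans_dvd ?_)
  rw [hmin]; exact pow_dvd_pow p htm

end CfsgLib.ShultGross
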