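import Cfsg.Agent.ShultGross.Weights
import Cfsg.Agent.ShultGross.Fpf
import Cfsg.Agent.ShultGross.Counting

/-!
A group of class two acting irreducibly together with a fixed point free endomorphism.
-/

set_option autoImplicit false
set_option linter.style.haveILetI false
set_option linter.unusedSectionVars false

namespace CfsgLib.ShultGross

open scoped commutatorElement

variable {k : Type*} [Field k] {W : Type*} [AddCommGroup W] [Module k W] {Q : Type*} [Group Q]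

theorem exists_commFactor (ρ : Q →* Module.End k W) (Z : Subgroup Q)
    (hscal : ∀ x ∈ Z, ∃ c : k, ρ x = c • (1 : Module.End k W)) (hcomm : ∀ x y : Q, ⁅x, y⁆ ∈ Z) :
    ∀ y x : Q, ∃ c : k, ρ y * ρ x = c • (ρ x * ρ y) := by
  intro y x
  obtain ⟨c, hc⟩ := hscal _ (hcomm y x)
  refine ⟨c, ?_⟩
  rw [← map_mul, ← map_mul, show y * x = ⁅y, x⁆ * (x * y) by rw [commutatorElement_def]; group,
    map_mul ρ _ (x * y), hc, smul_mul_assoc, one_mul]

theorem indep_of_commFactor {U : Type*} [AddCommGroup U] [Module k U] [Nontrivial U] (ρ : Q →* Module.End k U)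
    {A : Type*} [Fintype A] (rep : A → Q) (χ : A → Q → k) (hχ : Function.Injective χ)
    (hrel : ∀ a y, ρ y * ρ (rep a) = χ a y • (ρ (rep a) * ρ y)) (c : A → k)
    (hc : ∑ a, c a • ρ (rep a) = 0) : ∀ a, c a = 0 := by
  have hrep : ∀ a, ρ (rep a) ≠ 0 := by
    intro a h0
    obtain ⟨u, hu⟩ := exists_ne (0 : U)
    apply hu
    have h1 : ρ (rep a)⁻¹ * ρ (rep a) = 1 := by rw [← map_mul, inv_mul_cancel, map_one]
    rw [h0, mul_zero] at h1
    simpa using (LinearMap.congr_fun h1 u).symm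
  intro a
  have h := weights_indep (fun y : Q => (LinearMap.mulLeft k (ρ y)).comp (LinearMap.mulRight k (ρ y⁻¹)))
    Finset.univ (fun a => c a • ρ (rep a)) χ (fun a _ y => ?_) hχ.injOn hc a (Finset.mem_univ a)
  · exact (smul_eq_zero.1 h).resolve_right (hrep a)
  · simp only [LinearMap.comp_apply, LinearMap.mulRight_apply, LinearMap.mulLeft_apply, smul_mul_assoc,
      mul_smul_comm]
    rw [← mul_assoc, hrel, smul_mul_assoc, mul_assoc, ← map_mul, mul_inv_cancel, map_one, mul_one, smul_comm]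

variable [IsAlgClosed k] [FiniteDimensional k W] [Nontrivial W] [Finite Q]

theorem index_block {p m : ℕ} (hp : p.Prime) (hpk : (p : k) ≠ 0) {q : ℕ} [Fact q.Prime] (hqk : (q : k) ≠ 0)
    (hQ : IsPGroup q Q) (ρ : Q →* Module.End k W) (σ : MulAut Q) (T : Module.End k W)
    (hσ : σ ^ p ^ (m + 1) = 1) (hT : T ^ p ^ (m + 1) = 1) (hTρ : ∀ x, T * ρ x = ρ (σ x) * T)
    (hfpf : ∀ w, T w = w → w = 0)
    (hirr : ∀ U : Submodule k W, (∀ x, ∀ v ∈ U, ρ x v ∈ U) → (∀ v ∈ U, T v ∈ U) → U = ⊥ ∨ U = ⊤)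
    (Z : Subgroup Q) (hZσ : ∀ x ∈ Z, σ x ∈ Z) (hZscal : ∀ x ∈ Z, ∃ c : k, ρ x = c • (1 : Module.End k W))
    (hcomm : ∀ x y : Q, ⁅x, y⁆ ∈ Z) (hdisp : ∀ x, x⁻¹ * (σ ^ p ^ m) x ∈ Z → x ∈ Z)
    (hnc : ¬ ∀ x y, ρ x * ρ y = ρ y * ρ x) :
    ∃ R₀ : Subgroup Q, R₀.Normal ∧ Z ≤ R₀ ∧ (∀ x, x ∈ R₀ ↔ ∀ y, ρ x * ρ y = ρ y * ρ x) ∧
      (∀ x ∈ R₀, σ x ∈ R₀) ∧ R₀.index = (p ^ (m + 1) - 1) ^ 2 ∧
      (∀ U : Submodule k W, (∀ x, ∀ v ∈ U, ρ x v ∈ U) → U = ⊥ ∨ U = ⊤) ∧ R₀ ≠ ⊤ ∧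
      ∀ ω : k, ω ^ p ^ (m + 1) = 1 → ω ≠ 1 → ∃ w : W, w ≠ 0 ∧ T w = ω • w := by
  classical
  haveI hZn : Z.Normal := ⟨fun z hz g => by
    have h1 := mul_mem (hcomm g z) hz
    rwa [commutatorElement_def, inv_mul_cancel_right] at h1⟩
  set τ := σ ^ p ^ m with hτ
  let R₀ : Subgroup Q :=
    { carrier := {x | ∀ y, Commute (ρ x) (ρ y)}
      one_mem' := fun y => by rw [map_one]; exact Commute.one_left _
      mul_mem' := fun {a b} ha hb y => by rw [map_mul]; exact (ha y).mul_left (hb y)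
      inv_mem' := fun {a} ha y => by
        have h1 : ρ a⁻¹ * ρ a = 1 := by rw [← map_mul, inv_mul_cancel, map_one]
        have h2 : ρ a * ρ a⁻¹ = 1 := by rw [← map_mul, mul_inv_cancel, map_one]
        show ρ a⁻¹ * ρ y = ρ y * ρ a⁻¹
        calc ρ a⁻¹ * ρ y = ρ a⁻¹ * ρ y * (ρ a * ρ a⁻¹) := by rw [h2, mul_one]
          _ = ρ a⁻¹ * (ρ y * ρ a) * ρ a⁻¹ := by simp only [mul_assoc]
          _ = ρ a⁻¹ * (ρ a * ρ y) * ρ a⁻¹ := by rw [(ha y).eq]
          _ = ρ y * ρ a⁻¹ := by rw [← mul_assoc (ρ a⁻¹), h1, one_mul] }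
  have hmem : ∀ x, x ∈ R₀ ↔ ∀ y, ρ x * ρ y = ρ y * ρ x := fun x => Iff.rfl
  have hZR : Z ≤ R₀ := fun x hx => by
    obtain ⟨c, hc⟩ := hZscal x hx
    exact (hmem x).2 fun y => by rw [hc, smul_mul_assoc, one_mul, mul_smul_comm, mul_one]
  haveI hRn : R₀.Normal := ⟨fun z hz g => by
    have h1 := mul_mem (hZR (hcomm g z)) hz
    rwa [commutatorElement_def, inv_mul_cancel_right] at h1⟩
  have hh : p ^ (m + 1) ≠ 0 := pow_ne_zero _ hp.ne_zero
  set u : (Module.End k W)ˣ := Units.ofPowEqOne T _ hT hh with hu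
  have huT : (u : Module.End k W) = T := rfl
  have hRσ : ∀ x ∈ R₀, σ x ∈ R₀ := by
    intro x hx
    rw [hmem] at hx ⊢
    intro y
    have hy : σ (σ.symm y) = y := MulEquiv.apply_symm_apply σ y
    refine u.isUnit.mul_left_injective ?_
    show ρ (σ x) * ρ y * T = ρ y * ρ (σ x) * T
    have hy' : ρ y * T = T * ρ (σ.symm y) := by rw [hTρ, hy]
    calc ρ (σ x) * ρ y * T = ρ (σ x) * T * ρ (σ.symm y) := by rw [mul_assoc, hy', mul_assoc]
      _ = T * (ρ x * ρ (σ.symm y)) := by rw [← hTρ, mul_assoc]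
      _ = T * ρ (σ.symm y) * ρ x := by rw [hx, mul_assoc]
      _ = ρ y * ρ (σ x) * T := by rw [← hy', mul_assoc, hTρ, mul_assoc]
  have hτZ : ∀ x ∈ Z, τ x ∈ Z := fun x hx => pow_apply_mem hZσ _ hx
  have hτR : ∀ x ∈ R₀, τ x ∈ R₀ := fun x hx => pow_apply_mem hRσ _ hx
  have hfixR : ∀ x ∈ R₀, ρ (τ x) = ρ x :=
    fixed_on_central hp ρ σ T hσ hT hTρ hfpf hirr R₀ hRσ (fun x hx => (hmem x).1 hx)
  have hτfpf := quotAut_fpf τ Z hτZ hdisp
  have hmapinv : ∀ a ∈ R₀.map (QuotientGroup.mk' Z), quotAut τ Z hτZ a ∈ R₀.map (QuotientGroup.mk' Z) := by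
    rintro _ ⟨x, hx, rfl⟩
    exact ⟨τ x, hτR x hx, (quotAut_mk τ Z hτZ x).symm⟩
  have hRscal : ∀ x ∈ R₀, ∃ c : k, ρ x = c • (1 : Module.End k W) := by
    intro x hx
    obtain ⟨_, ⟨r, hr, rfl⟩, hrx⟩ := exists_displacement (quotAut τ Z hτZ) hτfpf (R₀.map (QuotientGroup.mk' Z))
      hmapinv (y := QuotientGroup.mk' Z x) ⟨x, hx, rfl⟩
    rw [QuotientGroup.mk'_apply, quotAut_mk, ← QuotientGroup.mk_inv, ← QuotientGroup.mk_mul,
      QuotientGroup.mk'_apply, QuotientGroup.eq] at hrx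
    obtain ⟨c, hc⟩ := hZscal _ hrx
    refine ⟨c, ?_⟩
    rw [← hc, map_mul]
    have h1 : ρ (r⁻¹ * τ r)⁻¹ = 1 := by
      rw [mul_inv_rev, inv_inv, map_mul]
      have h2 : ρ (τ r)⁻¹ * ρ (τ r) = 1 := by rw [← map_mul, inv_mul_cancel, map_one]
      rwa [hfixR r hr] at h2
    rw [h1, one_mul]
  have hτRq : ∀ a, quotAut τ R₀ hτR a = a → a = 1 := by
    refine quotAut_fpf τ R₀ hτR fun x hx => ?_
    have h1 : (QuotientGroup.mk' Z x)⁻¹ * quotAut τ Z hτZ (QuotientGroup.mk' Z x) ∈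
        R₀.map (QuotientGroup.mk' Z) :=
      ⟨x⁻¹ * τ x, hx, by rw [map_mul, map_inv]; exact congrArg _ (quotAut_mk τ Z hτZ x).symm⟩
    obtain ⟨r, hr, hrx⟩ := mem_of_displacement_mem (quotAut τ Z hτZ) hτfpf _ hmapinv h1
    rw [QuotientGroup.mk'_apply, QuotientGroup.mk'_apply, QuotientGroup.eq] at hrx
    have := mul_mem hr (hZR hrx)
    rwa [mul_inv_cancel_left] at this
  have hRtop : R₀ ≠ ⊤ := fun h => hnc fun x y => (hmem x).1 (by rw [h]; trivial) y
  haveI : Fintype (Q ⧸ R₀) := Fintype.ofFinite _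
  let rep : Q ⧸ R₀ → Q := Function.update Quotient.out 1 1
  have hrep1 : rep 1 = 1 := Function.update_self ..
  have hrepmk : ∀ a, (rep a : Q ⧸ R₀) = a := by
    intro a
    rcases eq_or_ne a 1 with rfl | ha
    · rw [hrep1]; rfl
    · simp [rep, Function.update_of_ne ha]
  have hred : ∀ x : Q, ∃ c : k, ρ x = c • ρ (rep (x : Q ⧸ R₀)) := by
    intro x
    obtain ⟨c, hc⟩ := hRscal _ (QuotientGroup.eq.1 (hrepmk (x : Q ⧸ R₀)))
    refine ⟨c, ?_⟩
    calc ρ x = ρ (rep (x : Q ⧸ R₀) * ((rep (x : Q ⧸ R₀))⁻¹ * x)) := by rw [mul_inv_cancel_left]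
      _ = c • ρ (rep (x : Q ⧸ R₀)) := by rw [map_mul, hc, mul_smul_comm, mul_one]
  choose cc hcc using exists_commFactor ρ Z hZscal hcomm
  let χ : Q ⧸ R₀ → Q → k := fun a y => cc y (rep a)
  have hχ : Function.Injective χ := by
    intro a b hab
    rw [← hrepmk a, ← hrepmk b, QuotientGroup.eq, hmem]
    intro y
    have hy : cc y (rep a) = cc y (rep b) := congrFun hab y
    set x := rep a
    have e1 : ρ x * ρ x⁻¹ = 1 := by rw [← map_mul, mul_inv_cancel, map_one]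
    have e2 : ρ x⁻¹ * ρ x = 1 := by rw [← map_mul, inv_mul_cancel, map_one]
    have h1 : ρ x⁻¹ * ρ y = cc y x • (ρ y * ρ x⁻¹) := by
      calc ρ x⁻¹ * ρ y = ρ x⁻¹ * (ρ y * ρ x) * ρ x⁻¹ := by
            rw [mul_assoc (ρ x⁻¹), mul_assoc (ρ y), e1, mul_one]
        _ = cc y x • (ρ y * ρ x⁻¹) := by
            rw [hcc, mul_smul_comm, smul_mul_assoc, ← mul_assoc (ρ x⁻¹), e2, one_mul]
    symm
    calc ρ y * ρ (x⁻¹ * rep b) = ρ y * ρ x⁻¹ * ρ (rep b) := by rw [map_mul, mul_assoc]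
      _ = ρ (x⁻¹ * rep b) * ρ y := by
        have hne : cc y x ≠ 0 := by
          intro h0
          have h2 := hcc y x
          rw [h0, zero_smul, ← map_mul] at h2
          have h3 : ρ (y * x) * ρ (y * x)⁻¹ = 1 := by rw [← map_mul, mul_inv_cancel, map_one]
          rw [h2, zero_mul] at h3
          exact one_ne_zero h3.symm
        refine smul_right_injective _ hne ?_
        simp only
        rw [← smul_mul_assoc, ← h1, mul_assoc (ρ x⁻¹), hcc y (rep b), ← hy, mul_smul_comm, ← mul_assoc,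
          map_mul]
  have hindep : ∀ (U : Submodule k W) (hU : ∀ x, ∀ v ∈ U, ρ x v ∈ U), U ≠ ⊥ → ∀ c : Q ⧸ R₀ → k,
      (∀ v ∈ U, (∑ a, c a • ρ (rep a)) v = 0) → ∀ a, c a = 0 := by
    intro U hU hU0 c hc
    haveI : Nontrivial U := Submodule.nontrivial_iff_ne_bot.2 hU0
    refine indep_of_commFactor (subRep ρ U hU) rep χ hχ (fun a y => LinearMap.ext fun v => Subtype.ext ?_) c
      (LinearMap.ext fun v => Subtype.ext ?_)
    · simpa using LinearMap.congr_fun (hcc y (rep a)) (v : W)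
    · have h1 := hc (v : W) v.2
      simp only [LinearMap.coe_sum, Finset.sum_apply, LinearMap.smul_apply] at h1
      simp [h1]
  let π := quotAut σ R₀ hRσ
  have hπ : π ^ p ^ (m + 1) = 1 := quotAut_pow_eq_one R₀ hRσ hσ
  have hπτ : ∀ a, (π ^ p ^ m) a = quotAut τ R₀ hτR a := by
    intro a
    induction a using QuotientGroup.induction_on with
    | H x => rw [quotAut_pow_mk, quotAut_mk]
  have hπfpf : ∀ a, π a = a → a = 1 := by
    intro a ha
    refine hτRq a ?_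
    rw [← hπτ]
    have : ∀ j : ℕ, (π ^ j) a = a := by
      intro j
      induction j with
      | zero => rfl
      | succ j IH => rw [pow_succ', MulAut.mul_apply, IH, ha]
    exact this _
  let ψ : Q ⧸ R₀ ≃ Q ⧸ R₀ := Equiv.ofBijective (fun a => π a * a⁻¹) (Finite.injective_iff_bijective.1 (by
    intro a b hab
    have h1 : π b = π a * a⁻¹ * b := by rw [show π a * a⁻¹ = π b * b⁻¹ from hab, inv_mul_cancel_right]
    have h2 : π (a⁻¹ * b) = a⁻¹ * b := by rw [map_mul, map_inv, h1]; group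
    exact inv_mul_eq_one.1 (hπfpf _ h2)))
  let f : Q → Module.End k W := fun x => ρ (σ x * x⁻¹)
  have hfconst : ∀ x, ∀ r ∈ R₀, f (x * r) = f x := by
    intro x r hr
    obtain ⟨c, hc⟩ := hRscal r hr
    have hσr : ρ (σ r) = ρ r := by
      refine u.isUnit.mul_left_injective ?_
      show ρ (σ r) * T = ρ r * T
      rw [← hTρ, hc, mul_smul_comm, smul_mul_assoc, one_mul, mul_one]
    show ρ (σ (x * r) * (x * r)⁻¹) = ρ (σ x * x⁻¹)
    rw [map_mul σ, mul_inv_rev, map_mul, map_mul, map_mul, hσr, mul_assoc, ← mul_assoc (ρ r), ← map_mul ρ r,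
      mul_inv_cancel, map_one, one_mul, ← map_mul]
  set S : Module.End k W := ∑ a, f (rep a) with hS
  have hSρ : ∀ y, S * ρ y = ρ (σ y) * S := by
    intro y
    rw [hS, Finset.sum_mul, Finset.mul_sum]
    refine Fintype.sum_equiv (Equiv.mulLeft ((y : Q ⧸ R₀)⁻¹)) _ _ fun a => ?_
    have h1 : (y⁻¹ * rep a)⁻¹ * rep ((y : Q ⧸ R₀)⁻¹ * a) ∈ R₀ := by
      rw [← QuotientGroup.eq, QuotientGroup.mk_mul, QuotientGroup.mk_inv, hrepmk, hrepmk]
    have h2 := hfconst (y⁻¹ * rep a) _ h1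
    rw [mul_inv_cancel_left] at h2
    rw [Equiv.coe_mulLeft, h2]
    show ρ (σ (rep a) * (rep a)⁻¹) * ρ y = ρ (σ y) * ρ (σ (y⁻¹ * rep a) * (y⁻¹ * rep a)⁻¹)
    rw [← map_mul, ← map_mul]
    congr 1
    rw [map_mul, map_inv]; group
  have hSmem : ∀ U : Submodule k W, (∀ x, ∀ v ∈ U, ρ x v ∈ U) → ∀ v ∈ U, S v ∈ U := by
    intro U hU v hv
    simp only [hS, LinearMap.coe_sum, Finset.sum_apply]
    exact Submodule.sum_mem _ fun a _ => hU _ v hv
  have hψmk : ∀ a, ((σ (rep a) * (rep a)⁻¹ : Q) : Q ⧸ R₀) = ψ a := by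
    intro a
    rw [QuotientGroup.mk_mul, QuotientGroup.mk_inv, ← quotAut_mk σ R₀ hRσ, hrepmk]
    rfl
  have hker : LinearMap.ker S = ⊥ := by
    by_contra hne
    choose d hd using fun a => hred (σ (rep a) * (rep a)⁻¹)
    have hd0 : d 1 ≠ 0 := by
      intro h0
      have h1 := hd 1
      rw [h0, zero_smul, hrep1, map_one, inv_one, mul_one, map_one] at h1
      exact one_ne_zero h1
    have hKQ : ∀ x, ∀ v ∈ LinearMap.ker S, ρ x v ∈ LinearMap.ker S := by
      intro x v hv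
      rw [LinearMap.mem_ker] at hv ⊢
      rw [← Module.End.mul_apply, hSρ, Module.End.mul_apply, hv, map_zero]
    have hcoef := hindep (LinearMap.ker S) hKQ hne (fun b => d (ψ.symm b)) (fun v hv => ?_) (ψ 1)
    · exact hd0 (by simpa using hcoef)
    · have e : ∑ b, d (ψ.symm b) • ρ (rep b) = S := by
        rw [hS, ← Equiv.sum_comp ψ]
        refine Finset.sum_congr rfl fun a _ => ?_
        show d (ψ.symm (ψ a)) • ρ (rep (ψ a)) = ρ (σ (rep a) * (rep a)⁻¹)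
        rw [Equiv.symm_apply_apply, hd a, hψmk]
      rw [e]
      exact LinearMap.mem_ker.1 hv
  have hSu : IsUnit S := (LinearMap.isUnit_iff_ker_eq_bot S).2 hker
  set Si : Module.End k W := ↑hSu.unit⁻¹ with hSi
  have hSi1 : Si * S = 1 := hSu.val_inv_mul
  have hSi2 : S * Si = 1 := hSu.mul_val_inv
  set c : Module.End k W := Si * T with hc
  have hTS : T = S * c := by rw [hc, ← mul_assoc, hSi2, one_mul]
  have hcρ : ∀ y, c * ρ y = ρ y * c := by
    intro y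
    have h1 : Si * ρ (σ y) = ρ y * Si := by
      calc Si * ρ (σ y) = Si * (ρ (σ y) * S) * Si := by rw [mul_assoc, mul_assoc, hSi2, mul_one]
        _ = ρ y * Si := by rw [← hSρ, ← mul_assoc, hSi1, one_mul]
    rw [hc, mul_assoc, hTρ, ← mul_assoc, h1, mul_assoc]
  have hcS : c * S = S * c := by
    rw [hS, Finset.mul_sum, Finset.sum_mul]
    exact Finset.sum_congr rfl fun a _ => hcρ _
  have hcT : T * c = c * T := by
    calc T * c = S * c * c := by rw [← hTS]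
      _ = c * S * c := by rw [hcS]
      _ = c * (S * c) := mul_assoc _ _ _
      _ = c * T := by rw [← hTS]
  obtain ⟨μ, hμ⟩ := HallHigmanB.scalar_of_commute (Set.range ρ ∪ {T})
    (fun U hU => hirr U (fun x v hv => hU _ (Or.inl ⟨x, rfl⟩) v hv) fun v hv => hU _ (Or.inr rfl) v hv)
    (f := c) (by
      rintro _ (⟨y, rfl⟩ | rfl)
      · exact (hcρ y).symm
      · exact hcT)
  have hQirr : ∀ U : Submodule k W, (∀ x, ∀ v ∈ U, ρ x v ∈ U) → U = ⊥ ∨ U = ⊤ := fun U hU =>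
    hirr U hU fun v hv => by
      rw [hTS, hμ, mul_smul_comm, mul_one, LinearMap.smul_apply]
      exact U.smul_mem μ (hSmem U hU v hv)
  haveI : Fintype Q := Fintype.ofFinite Q
  have hQk : (Fintype.card Q : k) ≠ 0 := by
    obtain ⟨e, he⟩ := IsPGroup.iff_card.1 hQ
    rw [← Nat.card_eq_fintype_card, he, Nat.cast_pow]
    exact pow_ne_zero _ hqk
  obtain ⟨c₁, hc₁, hrepr⟩ := HallHigmanB.exists_reproducing ρ hQirr hQk
  have hspan : ⊤ ≤ Submodule.span k (Set.range fun a => ρ (rep a)) := by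
    intro g _
    have h1 : g = c₁⁻¹ • (c₁ • g) := by rw [inv_smul_smul₀ hc₁]
    rw [h1, hrepr g]
    refine Submodule.smul_mem _ _ (Submodule.sum_mem _ fun x _ => Submodule.smul_mem _ _ ?_)
    obtain ⟨e, he⟩ := hred x
    rw [he]
    exact Submodule.smul_mem _ _ (Submodule.subset_span ⟨_, rfl⟩)
  have hli : LinearIndependent k fun a => ρ (rep a) := by
    rw [Fintype.linearIndependent_iff]
    intro c' hc'
    exact hindep ⊤ (fun _ _ _ => trivial) top_ne_bot c' fun v _ => by rw [hc']; rfl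
  let b := Module.Basis.mk hli hspan
  have hb : ∀ a, b a = ρ (rep a) := fun a => Module.Basis.mk_apply _ _ _
  have hdim := dim_eq (h := p ^ (m + 1)) (by rw [Nat.cast_pow]; exact pow_ne_zero _ hpk) T hT hfpf b 1
    (by rw [hb, hrep1, map_one]) π.toEquiv (map_one π)
    (fun a => by rw [perm_pow_apply, hπ]; rfl)
    (fun a ha i hi0 hi he => ha (hτRq a (by
      rw [← hπτ]; rw [perm_pow_apply] at he; exact fixed_of_pow_fixed π hp hπ hi0 hi he)))
    (fun a => by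
      obtain ⟨e, he⟩ := hred (σ (rep a))
      refine ⟨e, ?_⟩
      rw [hb, hb, hTρ, he, ← quotAut_mk σ R₀ hRσ, hrepmk, smul_mul_assoc]
      rfl)
  refine ⟨R₀, hRn, hZR, hmem, hRσ, ?_⟩
  refine ⟨?_, hQirr, hRtop, ?_⟩
  rotate_left
  · rcases hdim with ⟨-, h⟩ | h
    · exact h
    · have h1 : R₀.index = Module.finrank k W ^ 2 := by
        rw [Subgroup.index_eq_card, Nat.card_eq_fintype_card, ← Module.finrank_eq_card_basis b, sq]
        exact Module.finrank_linearMap k k W W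
      rw [h, one_pow, Subgroup.index_eq_one] at h1
      exact absurd h1 hRtop
  have hcardA : R₀.index = Module.finrank k W ^ 2 := by
    rw [Subgroup.index_eq_card, Nat.card_eq_fintype_card, ← Module.finrank_eq_card_basis b, sq]
    exact Module.finrank_linearMap k k W W
  rcases hdim with ⟨h, -⟩ | h
  · rw [hcardA, h]
  · exfalso
    rw [h, one_pow, Subgroup.index_eq_one] at hcardA
    exact hRtop hcardA

end CfsgLib.ShultGross
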