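import Cfsg.Agent.ShultGross.Block
import Cfsg.Agent.ShultGross.Extra
import Cfsg.Agent.ShultGross.Arith
import Cfsg.Agent.HallHigmanB.Fermat

/-!
The special case of the central lemma: a group of class two cannot be moved by the last power.
-/

set_option autoImplicit false
set_option linter.style.haveILetI false
set_option linter.unusedSectionVars false

namespace CfsgLib.ShultGross

open scoped commutatorElement

variable {k : Type*} [Field k] [IsAlgClosed k] {V : Type*} [AddCommGroup V] [Module k V] [FiniteDimensional k V]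
  [Nontrivial V] {Q : Type*} [Group Q] [Finite Q]

theorem center_invariant (σ : MulAut Q) : ∀ x ∈ Subgroup.center Q, σ x ∈ Subgroup.center Q := by
  intro x hx
  rw [Subgroup.mem_center_iff] at hx ⊢
  intro g
  rw [← MulEquiv.apply_symm_apply σ g, ← map_mul, ← map_mul, hx]

theorem restrict_pow (f : Module.End k V) (W : Submodule k V) (hW : ∀ w ∈ W, f w ∈ W) (j : ℕ) (w : W) :
    ((f.restrict hW ^ j) w : V) = (f ^ j) w := by
  induction j generalizing w with
  | zero => rfl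
  | succ j IH => rw [pow_succ, Module.End.mul_apply, IH, pow_succ, Module.End.mul_apply]; rfl

theorem special_false {p n : ℕ} (hp : p.Prime) (hp2 : p ≠ 2) (hpk : (p : k) ≠ 0) {q : ℕ} [Fact q.Prime]
    (hqk : (q : k) ≠ 0) (hQ : IsPGroup q Q) (ρ : Q →* Module.End k V) (hinj : Function.Injective ρ)
    (σ : MulAut Q) (T : Module.End k V) (hσ : σ ^ p ^ (n + 1) = 1) (hT : T ^ p ^ (n + 1) = 1)
    (hTρ : ∀ x, T * ρ x = ρ (σ x) * T) (hσfpf : ∀ x, σ x = x → x = 1) (hfpf : ∀ v, T v = v → v = 0)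
    (hirr : ∀ U : Submodule k V, (∀ x, ∀ v ∈ U, ρ x v ∈ U) → (∀ v ∈ U, T v ∈ U) → U = ⊥ ∨ U = ⊤)
    (hcomm : ∀ x y : Q, ⁅x, y⁆ ∈ Subgroup.center Q)
    (hdisp : ∀ x, x⁻¹ * (σ ^ p ^ n) x ∈ Subgroup.center Q → x ∈ Subgroup.center Q)
    (hne : Subgroup.center Q ≠ ⊤) : False := by
  classical
  set Z := Subgroup.center Q with hZdef
  have hZσ := center_invariant σ
  have hZρ : ∀ x ∈ Z, ∀ y, ρ x * ρ y = ρ y * ρ x := fun x hx y => by
    rw [← map_mul, ← map_mul, Subgroup.mem_center_iff.1 hx y]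
  obtain ⟨i, hin, W, hW0, hWQ, hWT, hWfpf, hWscal, hWirr⟩ :=
    exists_block hp ρ σ T hσ hT hTρ hfpf hirr Z hZσ hZρ
  obtain ⟨m, rfl⟩ : ∃ m, n = i + m := ⟨n - i, by omega⟩
  haveI : Nontrivial W := Submodule.nontrivial_iff_ne_bot.2 hW0
  let ρW := subRep ρ W hWQ
  let TW : Module.End k W := (T ^ p ^ i).restrict hWT
  set σ₀ := σ ^ p ^ i with hσ₀
  have hjm : p ^ i * p ^ (m + 1) = p ^ (i + m + 1) := by rw [← pow_add, add_assoc]
  have hτ : σ₀ ^ p ^ m = σ ^ p ^ (i + m) := by rw [hσ₀, ← pow_mul, ← pow_add]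
  have hTW : TW ^ p ^ (m + 1) = 1 := LinearMap.ext fun w => Subtype.ext (by
    rw [restrict_pow, ← pow_mul, hjm, hT]; rfl)
  have hTρW : ∀ x, TW * ρW x = ρW (σ₀ x) * TW := fun x => LinearMap.ext fun w => Subtype.ext (by
    exact LinearMap.congr_fun (pow_semiconj hTρ (p ^ i) x) (w : V))
  have hfpfW : ∀ w : W, TW w = w → w = 0 := fun w h =>
    Subtype.ext (hWfpf w w.2 (congrArg Subtype.val h))
  have hirrW : ∀ U : Submodule k W, (∀ x, ∀ v ∈ U, ρW x v ∈ U) → (∀ v ∈ U, TW v ∈ U) → U = ⊥ ∨ U = ⊤ := by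
    intro U h1 h2
    rcases hWirr (U.map W.subtype) (Submodule.map_subtype_le W U)
      (by rintro x _ ⟨u, hu, rfl⟩; exact ⟨ρW x u, h1 x u hu, rfl⟩)
      (by rintro _ ⟨u, hu, rfl⟩; exact ⟨TW u, h2 u hu, rfl⟩) with h | h
    · left
      exact Submodule.map_injective_of_injective W.injective_subtype (by rw [h, Submodule.map_bot])
    · right
      exact Submodule.map_injective_of_injective W.injective_subtype (by rw [h, Submodule.map_subtype_top])
  have hWscal' : ∀ x ∈ Z, ∃ c : k, ρW x = c • (1 : Module.End k W) := fun x hx => by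
    obtain ⟨c, hc⟩ := hWscal x hx
    exact ⟨c, LinearMap.ext fun w => Subtype.ext (hc w w.2)⟩
  -- faithfulness of the translates of `W`
  have hh1 : 1 ≤ p ^ (i + m + 1) := pow_pos hp.pos _
  have hfaith : ∀ x : Q, (∀ l : ℕ, ρW ((σ ^ l) x) = 1) → x = 1 := by
    intro x hx
    let U : Submodule k V := ⨅ y : {y : Q // ∀ l : ℕ, ρW ((σ ^ l) y) = 1}, LinearMap.ker (ρ y - 1)
    have hU : ∀ v, v ∈ U ↔ ∀ y : Q, (∀ l : ℕ, ρW ((σ ^ l) y) = 1) → ρ y v = v := fun v => by
      simp [U, Submodule.mem_iInf, sub_eq_zero]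
    have hUQ : ∀ g, ∀ v ∈ U, ρ g v ∈ U := by
      intro g v hv
      rw [hU] at hv ⊢
      intro y hy
      have h1 := hv (g⁻¹ * y * g) (fun l => by
        rw [map_mul (σ ^ l), map_mul (σ ^ l), map_inv, map_mul ρW, map_mul ρW, hy l, mul_one, ← map_mul,
          inv_mul_cancel, map_one])
      have h2 := congrArg (ρ g) h1
      rwa [← Module.End.mul_apply, ← map_mul, ← mul_assoc, ← mul_assoc, mul_inv_cancel, one_mul, map_mul,
        Module.End.mul_apply] at h2
    have hUT : ∀ v ∈ U, T v ∈ U := by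
      intro v hv
      rw [hU] at hv ⊢
      intro y hy
      have h1 := hv ((σ ^ (p ^ (i + m + 1) - 1)) y) (fun l => by
        rw [← MulAut.mul_apply, ← pow_add]; exact hy _)
      have h2 := LinearMap.congr_fun (hTρ ((σ ^ (p ^ (i + m + 1) - 1)) y)) v
      rw [Module.End.mul_apply, Module.End.mul_apply, h1, ← MulAut.mul_apply, ← pow_succ',
        Nat.sub_add_cancel hh1, hσ, MulAut.one_apply] at h2
      exact h2.symm
    have hWU : W ≤ U := fun w hw => (hU w).2 fun y hy => by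
      have h1 := congrArg Subtype.val (LinearMap.congr_fun (hy 0) ⟨w, hw⟩)
      simpa [ρW] using h1
    rcases hirr U hUQ hUT with h | h
    · exact absurd (eq_bot_iff.2 (hWU.trans h.le)) hW0
    · refine hinj ?_
      rw [map_one]
      refine LinearMap.ext fun v => ?_
      exact (hU v).1 (by rw [h]; trivial) x hx
  -- a commutator killed on all translates is trivial
  have hcommOne : ∀ a b : Q, ρW a * ρW b = ρW b * ρW a → ρW ⁅a, b⁆ = 1 := by
    intro a b h
    rw [← map_mul, ← map_mul] at h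
    rw [show ⁅a, b⁆ = a * b * (b * a)⁻¹ by rw [commutatorElement_def]; group, map_mul, h, ← map_mul,
      mul_inv_cancel, map_one]
  have hnc : ¬ ∀ x y, ρW x * ρW y = ρW y * ρW x := by
    intro hall
    refine hne (eq_top_iff.2 fun x _ => Subgroup.mem_center_iff.2 fun y => ?_)
    refine commutatorElement_eq_one_iff_mul_comm.1 (hfaith _ fun l => ?_)
    rw [map_commutatorElement]
    exact hcommOne _ _ (hall _ _)
  obtain ⟨R₀, hRn, hZR, hR, hRσ, hindex, -⟩ := index_block hp hpk hqk hQ ρW σ₀ TW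
    (by rw [hσ₀, ← pow_mul, hjm, hσ]) hTW hTρW hfpfW hirrW Z (fun x hx => pow_apply_mem hZσ _ hx)
    hWscal' hcomm (fun x hx => hdisp x (by rwa [hτ] at hx)) hnc
  have hq : q.Prime := Fact.out
  -- arithmetic of the block
  obtain ⟨e₀, he₀⟩ := hQ.index R₀
  rw [hindex] at he₀
  obtain ⟨k₀, -, hk₀⟩ := (Nat.dvd_prime_pow hq).1 (he₀ ▸ dvd_pow_self (p ^ (m + 1) - 1) two_ne_zero)
  have hp3 : 2 < p := lt_of_le_of_ne hp.two_le (Ne.symm hp2)
  have hpm3 : p ≤ p ^ (m + 1) := Nat.le_self_pow (by omega) p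
  have hk1 : 1 ≤ k₀ := by
    by_contra h0
    rw [show k₀ = 0 by omega, pow_zero] at hk₀
    omega
  obtain ⟨hq2, -⟩ := HallHigmanB.exception_odd hp hp2 hq (n₀ := m + 1) (by omega) hk1 hk₀
  subst hq2
  have hpm : p ^ (m + 1) = 2 ^ k₀ + 1 := by omega
  -- the quotient by the centre
  haveI : Z.Normal := by rw [hZdef]; infer_instance
  let σq := quotAut σ Z hZσ
  have hσq : σq ^ p ^ (i + m + 1) = 1 := quotAut_pow_eq_one Z hZσ hσ
  haveI : Fintype (Q ⧸ Z) := Fintype.ofFinite _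
  have hfree : ∀ a ∈ Finset.univ.erase (1 : Q ⧸ Z), ∀ l, 0 < l → l < p ^ (i + m + 1) →
      ((σq.toEquiv : Equiv.Perm (Q ⧸ Z)) ^ l) a ≠ a := by
    intro a ha l hl0 hl he
    rw [perm_pow_apply] at he
    have h1 := fixed_of_pow_fixed σq hp hσq hl0 hl he
    refine (Finset.mem_erase.1 ha).1 ?_
    induction a using QuotientGroup.induction_on with
    | H x =>
      rw [quotAut_pow_mk, QuotientGroup.eq] at h1
      rw [QuotientGroup.eq_one_iff]
      refine hdisp x ?_
      have h2 := inv_mem h1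
      rwa [mul_inv_rev, inv_inv] at h2
  obtain ⟨O, -, hO⟩ := HallHigmanB.sum_orbits (σq.toEquiv : Equiv.Perm (Q ⧸ Z)) (p ^ (i + m + 1))
    (pow_pos hp.pos _) (fun a => by rw [perm_pow_apply, hσq]; rfl) (fun _ => (1 : ℕ))
    (Finset.univ.erase (1 : Q ⧸ Z))
    (fun a ha => Finset.mem_erase.2 ⟨fun h1 =>
      (Finset.mem_erase.1 ha).1 (σq.injective (h1.trans (map_one σq).symm)), Finset.mem_univ _⟩) hfree
  simp only [Finset.sum_const, Finset.card_erase_of_mem (Finset.mem_univ _), Finset.card_univ,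
    Finset.card_range, smul_eq_mul, mul_one] at hO
  obtain ⟨e, he⟩ := hQ.index Z
  have hcardZ : Fintype.card (Q ⧸ Z) = 2 ^ e := by rw [← Nat.card_eq_fintype_card, ← Subgroup.index_eq_card, he]
  have hdvd : p ^ ((m + 1) + i) ∣ 2 ^ e - 1 := by
    rw [← hcardZ, hO, show m + 1 + i = i + m + 1 by omega]
    exact dvd_mul_left _ _
  have hediv := two_mul_pow_dvd hp hp2 hk1 (by omega) hpm hdvd
  have he0 : e ≠ 0 := by
    rintro rfl
    rw [pow_zero] at he
    exact hne (Subgroup.index_eq_one.1 he)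
  have hele : 2 * k₀ * p ^ i ≤ e := Nat.le_of_dvd (Nat.pos_of_ne_zero he0) hediv
  -- the map to the product of the translated quotients
  let ψ : Q →* (Fin (p ^ i) → Q ⧸ R₀) :=
    MonoidHom.mk' (fun x l => (((σ ^ (l : ℕ)) x : Q) : Q ⧸ R₀))
      (fun x y => funext fun l => by simp [map_mul])
  have hper : ∀ x, (∀ l < p ^ i, (σ ^ l) x ∈ R₀) → ∀ l, (σ ^ l) x ∈ R₀ := by
    intro x hx l
    induction l using Nat.strong_induction_on with
    | _ l IH =>
      rcases lt_or_ge l (p ^ i) with h | h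
      · exact hx l h
      · have := hRσ _ (IH (l - p ^ i) (by have := pow_pos hp.pos i; omega))
        rwa [hσ₀, ← MulAut.mul_apply, ← pow_add, Nat.add_sub_cancel' h] at this
  have hkerψ : ψ.ker = Z := by
    refine le_antisymm (fun x hx => ?_) (fun x hx => ?_)
    · have hxR := hper x fun l hl => (QuotientGroup.eq_one_iff _).1 (congrFun (MonoidHom.mem_ker.1 hx) ⟨l, hl⟩)
      refine Subgroup.mem_center_iff.2 fun y => ?_
      symm
      refine commutatorElement_eq_one_iff_mul_comm.1 (hfaith _ fun l => ?_)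
      rw [map_commutatorElement]
      exact hcommOne _ _ ((hR _).1 (hxR l) _)
    · exact MonoidHom.mem_ker.2 (funext fun l =>
        (QuotientGroup.eq_one_iff _).2 (hZR (pow_apply_mem hZσ _ hx)))
  have hrange : Nat.card ψ.range = 2 ^ e := by rw [← Subgroup.index_ker, hkerψ, he]
  have hfull : Nat.card (Fin (p ^ i) → Q ⧸ R₀) = 2 ^ (2 * k₀ * p ^ i) := by
    rw [Nat.card_fun, Nat.card_fin, ← Subgroup.index_eq_card, hindex, hk₀, ← pow_mul, ← pow_mul,
      show k₀ * (2 * p ^ i) = 2 * k₀ * p ^ i by ring]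
  have hsurj : Function.Surjective ψ := by
    rw [← MonoidHom.range_eq_top]
    refine Subgroup.eq_top_of_le_card _ ?_
    rw [hrange, hfull]
    exact Nat.pow_le_pow_right (by norm_num) hele
  -- a commutator supported on one translate
  push Not at hnc
  obtain ⟨a, b, hab⟩ := hnc
  have hj0 : 0 < p ^ i := pow_pos hp.pos i
  obtain ⟨x, hx⟩ := hsurj (Pi.mulSingle ⟨0, hj0⟩ (a : Q ⧸ R₀))
  obtain ⟨y, hy⟩ := hsurj (Pi.mulSingle ⟨0, hj0⟩ (b : Q ⧸ R₀))
  have hx0 : x⁻¹ * a ∈ R₀ := QuotientGroup.eq.1 (by simpa [ψ] using congrFun hx ⟨0, hj0⟩)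
  have hy0 : y⁻¹ * b ∈ R₀ := QuotientGroup.eq.1 (by simpa [ψ] using congrFun hy ⟨0, hj0⟩)
  have hxl : ∀ l < p ^ i, 0 < l → (σ ^ l) x ∈ R₀ := fun l hl hl0 => by
    refine (QuotientGroup.eq_one_iff _).1 ?_
    have h1 := congrFun hx ⟨l, hl⟩
    rwa [Pi.mulSingle_eq_of_ne (by simp [Fin.ext_iff]; omega)] at h1
  set c := ⁅x, y⁆ with hc
  have hcZ : c ∈ Z := hcomm x y
  have hcl : ∀ l < p ^ i, 0 < l → ρW ((σ ^ l) c) = 1 := fun l hl hl0 => by
    rw [hc, map_commutatorElement]
    exact hcommOne _ _ ((hR _).1 (hxl l hl hl0) _)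
  have hc0 : ρW c ≠ 1 := by
    intro h1
    have hxy : Commute (ρW x) (ρW y) := by
      show ρW x * ρW y = ρW y * ρW x
      rw [← map_mul, ← map_mul, show x * y = c * (y * x) by rw [hc, commutatorElement_def]; group, map_mul _ c,
        h1, one_mul]
    have hay : Commute (ρW a) (ρW y) := by
      rw [← mul_inv_cancel_left x a, map_mul]
      exact hxy.mul_left ((hR _).1 hx0 _)
    have hab' : Commute (ρW a) (ρW b) := by
      rw [← mul_inv_cancel_left y b, map_mul]
      exact hay.mul_right (Commute.symm ((hR _).1 hy0 _))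
    exact hab hab'.eq
  -- periodicity on the centre
  have hσW : ∀ z ∈ Z, ρW (σ₀ z) = ρW z := by
    intro z hz
    obtain ⟨d, hd⟩ := hWscal' z hz
    refine (Units.ofPowEqOne TW _ hTW (pow_ne_zero _ hp.ne_zero)).isUnit.mul_left_injective ?_
    show ρW (σ₀ z) * TW = ρW z * TW
    rw [← hTρW, hd, mul_smul_comm, smul_mul_assoc, one_mul, mul_one]
  have hperc : ∀ l, ρW ((σ ^ (l + p ^ i)) c) = ρW ((σ ^ l) c) := fun l => by
    rw [add_comm, pow_add, MulAut.mul_apply]
    exact hσW _ (pow_apply_mem hZσ _ hcZ)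
  have hσc : (σ ^ p ^ i) c = c := by
    refine mul_inv_eq_one.1 (hfaith _ fun l => ?_)
    rw [map_mul, ← MulAut.mul_apply, ← pow_add, map_mul, hperc, ← map_mul, map_inv, mul_inv_cancel, map_one]
  let P : ℕ → Q := fun l => Nat.rec 1 (fun l r => r * (σ ^ l) c) l
  have hPσ : ∀ l, c * σ (P l) = P (l + 1) := by
    intro l
    induction l with
    | zero =>
      show c * σ 1 = 1 * (σ ^ 0) c
      rw [map_one, mul_one, one_mul, pow_zero, MulAut.one_apply]
    | succ l IH =>
      show c * σ (P l * (σ ^ l) c) = P (l + 1) * (σ ^ (l + 1)) c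
      rw [map_mul, ← mul_assoc, IH, pow_succ', MulAut.mul_apply]
  have hPZ : ∀ l, P l ∈ Z := by
    intro l
    induction l with
    | zero => exact one_mem Z
    | succ l IH => exact mul_mem IH (pow_apply_mem hZσ _ hcZ)
  have hPW : ∀ l, l + 1 ≤ p ^ i → ρW (P (l + 1)) = ρW c := by
    intro l
    induction l with
    | zero => intro _; show ρW (1 * (σ ^ 0) c) = ρW c; rw [one_mul, pow_zero, MulAut.one_apply]
    | succ l IH =>
      intro hl
      show ρW (P (l + 1) * (σ ^ (l + 1)) c) = ρW c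
      rw [map_mul, IH (by omega), hcl (l + 1) (by omega) (by omega), mul_one]
  have hP1 : P (p ^ i) = 1 := by
    refine hσfpf _ (mul_left_cancel (a := c) ?_)
    rw [hPσ]
    show P (p ^ i) * (σ ^ p ^ i) c = c * P (p ^ i)
    rw [hσc]
    exact (Subgroup.mem_center_iff.1 (hPZ _) c).symm
  have h1 := hPW (p ^ i - 1) (by omega)
  rw [Nat.sub_add_cancel hj0, hP1, map_one] at h1
  exact hc0 h1.symm

end CfsgLib.ShultGross
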