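import Cfsg.Agent.ShultGross.Reduce

/-!
A solvable group with a fixed point free automorphism of order `p ^ n`, `p` odd, has Fitting length at most `n`.
-/

set_option autoImplicit false
set_option linter.style.haveILetI false
set_option linter.unusedSectionVars false

namespace CfsgLib.ShultGross

universe u

theorem exists_chain {p : ℕ} (hp : p.Prime) (hp2 : p ≠ 2) (n : ℕ) : ∀ (G : Type u) [Group G] [Finite G],
    Group.IsSolvable G → ∀ σ : MulAut G, σ ^ p ^ n = 1 → (∀ g, σ g = g → g = 1) →
    ∃ F : Fin (n + 1) → Subgroup G, F 0 = ⊥ ∧ F (Fin.last n) = ⊤ ∧ Monotone F ∧ (∀ i, (F i).Normal) ∧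
      ∀ i : Fin n, ∃ k : ℕ, (F i.succ).lowerCentralSeries k ≤ F i.castSucc := by
  induction n with
  | zero =>
    intro G _ _ _ σ hσ hfpf
    rw [pow_zero, pow_one] at hσ
    have h1 : (⊤ : Subgroup G) = ⊥ := by
      rw [eq_bot_iff]
      exact fun x _ => Subgroup.mem_bot.2 (hfpf x (by rw [hσ]; rfl))
    exact ⟨fun _ => ⊥, rfl, h1.symm, monotone_const, fun _ => inferInstance, fun i => i.elim0⟩
  | succ n ih =>
    intro G _ _ hG σ hσ hfpf
    haveI := hG
    set N := Cfsg.fittingSubgroup G with hN
    haveI : N.Normal := Components.fittingSubgroup_normal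
    have hNσ : ∀ x ∈ N, σ x ∈ N := characteristic_invariant N Components.fittingSubgroup_characteristic σ
    have hσq : quotAut σ N hNσ ^ p ^ n = 1 := by
      refine MulEquiv.ext fun a => ?_
      induction a using QuotientGroup.induction_on with
      | H x =>
        rw [quotAut_pow_mk, MulAut.one_apply, QuotientGroup.eq]
        have h := inv_mem (pow_trivial_mod_fitting hp hp2 σ hσ hfpf x)
        rwa [mul_inv_rev, inv_inv] at h
    obtain ⟨F, h0, hlast, hmono, hnorm, hstep⟩ := ih (G ⧸ N)
      (Group.isSolvable_of_surjective (f := QuotientGroup.mk' N) (QuotientGroup.mk'_surjective N))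
      (quotAut σ N hNσ) hσq (quotAut_fpf σ N hNσ fun x hx => mem_of_displacement_mem σ hfpf N hNσ hx)
    refine ⟨Fin.cons ⊥ fun i => (F i).comap (QuotientGroup.mk' N), Fin.cons_zero .., ?_, ?_, ?_, ?_⟩
    · rw [show Fin.last (n + 1) = (Fin.last n).succ from (Fin.succ_last n).symm, Fin.cons_succ, hlast,
        Subgroup.comap_top]
    · intro i j hij
      induction i using Fin.cases with
      | zero => rw [Fin.cons_zero]; exact bot_le
      | succ i =>
        induction j using Fin.cases with
        | zero => exact absurd hij (by simp)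
        | succ j =>
          rw [Fin.cons_succ, Fin.cons_succ]
          exact Subgroup.comap_mono (hmono (Fin.succ_le_succ_iff.1 hij))
    · intro i
      induction i using Fin.cases with
      | zero => rw [Fin.cons_zero]; infer_instance
      | succ i => rw [Fin.cons_succ]; exact (hnorm i).comap _
    · intro i
      induction i using Fin.cases with
      | zero =>
        haveI : Group.IsNilpotent N := Components.fittingSubgroup_isNilpotent (G := G)
        obtain ⟨k, hk⟩ := (Subgroup.isNilpotent_iff_lowerCentralSeries N).1 inferInstance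
        refine ⟨k, ?_⟩
        rw [Fin.cons_succ, h0, MonoidHom.comap_bot, QuotientGroup.ker_mk', hk]
        exact bot_le
      | succ i =>
        obtain ⟨k, hk⟩ := hstep i
        refine ⟨k, ?_⟩
        rw [Fin.cons_succ, ← Fin.succ_castSucc, Fin.cons_succ, ← Subgroup.map_le_iff_le_comap,
          Subgroup.map_lowerCentralSeries, Subgroup.map_comap_eq_self_of_surjective (QuotientGroup.mk'_surjective N)]
        exact hk

end CfsgLib.ShultGross
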