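import Cfsg.Agent.ShultGross.Weights

/-!
The imprimitivity block of a weight of a central subgroup.
-/

set_option autoImplicit false
set_option linter.style.haveILetI false
set_option linter.unusedSectionVars false

namespace CfsgLib.ShultGross

open Finset

variable {k : Type*} [Field k] [IsAlgClosed k] {V : Type*} [AddCommGroup V] [Module k V] [FiniteDimensional k V]
  [Nontrivial V] {Q : Type*} [Group Q] [Finite Q]

theorem exists_block {p n : ℕ} (hp : p.Prime) (ρ : Q →* Module.End k V) (σ : MulAut Q) (T : Module.End k V)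
    (hσ : σ ^ p ^ (n + 1) = 1) (hT : T ^ p ^ (n + 1) = 1)
    (hTρ : ∀ x, T * ρ x = ρ (σ x) * T) (hfpf : ∀ v, T v = v → v = 0)
    (hirr : ∀ U : Submodule k V, (∀ x, ∀ v ∈ U, ρ x v ∈ U) → (∀ v ∈ U, T v ∈ U) → U = ⊥ ∨ U = ⊤)
    (H : Subgroup Q) (hH : ∀ x ∈ H, σ x ∈ H) (hcomm : ∀ x ∈ H, ∀ y, ρ x * ρ y = ρ y * ρ x) :
    ∃ i ≤ n, ∃ W : Submodule k V, W ≠ ⊥ ∧ (∀ x, ∀ w ∈ W, ρ x w ∈ W) ∧ (∀ w ∈ W, (T ^ p ^ i) w ∈ W) ∧
      (∀ w ∈ W, (T ^ p ^ i) w = w → w = 0) ∧ (∀ x ∈ H, ∃ c : k, ∀ w ∈ W, ρ x w = c • w) ∧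
      ∀ U ≤ W, (∀ x, ∀ w ∈ U, ρ x w ∈ U) → (∀ w ∈ U, (T ^ p ^ i) w ∈ U) → U = ⊥ ∨ U = W := by
  classical
  obtain ⟨i, μ, v, hin, hv0, hv, hper, hinj, hstep, -⟩ :=
    exists_period hp ρ σ T hσ hT hTρ hfpf H hH (fun x hx y _ => hcomm x hx y)
  let W : Submodule k V := ⨅ x : H, LinearMap.ker (ρ x - μ 0 x • (1 : Module.End k V))
  have hW : ∀ w, w ∈ W ↔ ∀ x : H, ρ x w = μ 0 x • w := fun w => by
    simp [W, Submodule.mem_iInf, sub_eq_zero]
  have hwt : ∀ l, ∀ w ∈ W, ∀ x : H, ρ x ((T ^ l) w) = μ l x • (T ^ l) w := by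
    intro l
    induction l with
    | zero => intro w hw; simpa using (hW w).1 hw
    | succ l IH => intro w hw; rw [pow_succ', Module.End.mul_apply]; exact hstep l _ (IH w hw)
  have hindep : ∀ f : ℕ → V, (∀ l ∈ range (p ^ i), ∀ x : H, ρ x (f l) = μ l x • f l) →
      ∑ l ∈ range (p ^ i), f l = 0 → ∀ l ∈ range (p ^ i), f l = 0 := fun f hf hs =>
    weights_indep (fun x : H => ρ x) _ f μ hf hinj hs
  have h0mem : 0 ∈ range (p ^ i) := mem_range.2 (pow_pos hp.pos i)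
  refine ⟨i, hin, W, fun hbot => hv0 ?_, fun y w hw => ?_, fun w hw => ?_, fun w hw hfix => ?_,
    fun x hx => ⟨μ 0 ⟨x, hx⟩, fun w hw => (hW w).1 hw ⟨x, hx⟩⟩, fun U hUW hUQ hUT => ?_⟩
  · have hmem := (hW v).2 hv
    rwa [hbot, Submodule.mem_bot] at hmem
  · rw [hW] at hw ⊢
    intro x
    rw [← Module.End.mul_apply, hcomm _ x.2 y, Module.End.mul_apply, hw x, map_smul]
  · rw [hW]
    intro x
    rw [hwt _ w hw x, ← hper 0, zero_add]
  · have hTs : T (∑ l ∈ range (p ^ i), (T ^ l) w) = ∑ l ∈ range (p ^ i), (T ^ l) w := by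
      have h1 := Finset.sum_range_succ' (fun l => (T ^ l) w) (p ^ i)
      rw [Finset.sum_range_succ, hfix] at h1
      rw [map_sum]
      simp only [← Module.End.mul_apply, ← pow_succ']
      simp only [pow_zero, Module.End.one_apply] at h1
      exact (add_right_cancel h1).symm
    simpa using hindep (fun l => (T ^ l) w) (fun l _ => hwt l w hw) (hfpf _ hTs) 0 h0mem
  · rcases eq_or_ne U ⊥ with hU0 | hU0
    · exact Or.inl hU0
    right
    refine le_antisymm hUW fun w hw => ?_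
    let M : Submodule k V := ⨆ l ∈ range (p ^ i), U.map (T ^ l)
    have hle : ∀ l ∈ range (p ^ i), U.map (T ^ l) ≤ M := fun l hl =>
      le_iSup₂ (f := fun l (_ : l ∈ range (p ^ i)) => U.map (T ^ l)) l hl
    have hMQ : ∀ y, ∀ z ∈ M, ρ y z ∈ M := by
      intro y
      suffices M ≤ M.comap (ρ y) from fun z hz => this hz
      refine iSup₂_le fun l hl => ?_
      rintro _ ⟨u, hu, rfl⟩
      show ρ y ((T ^ l) u) ∈ M
      have h1 := LinearMap.congr_fun (pow_semiconj hTρ l ((σ ^ l).symm y)) u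
      rw [MulEquiv.apply_symm_apply, Module.End.mul_apply, Module.End.mul_apply] at h1
      rw [← h1]
      exact hle l hl ⟨_, hUQ _ u hu, rfl⟩
    have hMT : ∀ z ∈ M, T z ∈ M := by
      suffices M ≤ M.comap T from fun z hz => this hz
      refine iSup₂_le fun l hl => ?_
      rintro _ ⟨u, hu, rfl⟩
      show T ((T ^ l) u) ∈ M
      rw [← Module.End.mul_apply, ← pow_succ']
      rcases eq_or_ne (l + 1) (p ^ i) with he | hne
      · exact hle 0 h0mem ⟨(T ^ (l + 1)) u, by rw [he]; exact hUT u hu, by simp⟩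
      · exact hle (l + 1) (mem_range.2 (by have := mem_range.1 hl; omega)) ⟨u, hu, rfl⟩
    rcases hirr M hMQ hMT with hM | hM
    · obtain ⟨u, hu, hu0⟩ := Submodule.exists_mem_ne_zero_of_ne_bot hU0
      have hmem : u ∈ M := hle 0 h0mem ⟨u, hu, by simp⟩
      rw [hM, Submodule.mem_bot] at hmem
      exact absurd hmem hu0
    · have hwM : w ∈ M := by rw [hM]; trivial
      rw [Submodule.mem_iSup_finset_iff_exists_sum] at hwM
      obtain ⟨f, hf⟩ := hwM
      have hzero := hindep (fun l => (f l : V) - if l = 0 then w else 0) (fun l _ x => ?_)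
        (by rw [sum_sub_distrib, hf, sum_ite_eq' (range (p ^ i)) 0 fun _ => w, if_pos h0mem, sub_self]) 0 h0mem
      · obtain ⟨u, hu, hfu⟩ := (f 0).2
        rw [if_pos rfl, sub_eq_zero] at hzero
        rw [← hzero, ← hfu]
        simpa using hu
      · obtain ⟨u, hu, hfu⟩ := (f l).2
        rw [map_sub, smul_sub, ← hfu, hwt l u (hUW hu) x]
        split_ifs with hl0
        · rw [hl0, (hW w).1 hw x]
        · simp

end CfsgLib.ShultGross
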