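import Mathlib

/-!
Weights of central subgroups in representations of a group extended by one endomorphism.
-/

set_option autoImplicit false
set_option linter.style.haveILetI false
set_option linter.unusedSectionVars false

namespace CfsgLib.ShultGross

open Finset

variable {k : Type*} [Field k] {V : Type*} [AddCommGroup V] [Module k V]

theorem weights_indep {α ι : Type*} (O : α → Module.End k V) (s : Finset ι) (v : ι → V) (μ : ι → α → k)
    (hv : ∀ i ∈ s, ∀ a, O a (v i) = μ i a • v i) (hμ : Set.InjOn μ ↑s) (hsum : ∑ i ∈ s, v i = 0) :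
    ∀ i ∈ s, v i = 0 := by
  classical
  induction s using Finset.induction_on generalizing v with
  | empty => intro i hi; exact absurd hi (notMem_empty _)
  | insert j s hj IH =>
    have hrest : ∀ i ∈ s, ∀ a, (μ i a - μ j a) • v i = 0 := by
      intro i hi a
      refine IH (fun i => (μ i a - μ j a) • v i) (fun i hi a' => ?_)
        (hμ.mono (coe_subset.2 (subset_insert j s))) ?_ i hi
      · rw [map_smul, hv i (mem_insert_of_mem hi), smul_comm]
      · have h1 := congrArg (fun w => O a w - μ j a • w) hsum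
        simp only [map_sum, map_zero, smul_zero, sub_zero, smul_sum, ← sum_sub_distrib] at h1
        rw [sum_congr rfl (fun i hi => show O a (v i) - μ j a • v i = (μ i a - μ j a) • v i by
          rw [hv i hi, sub_smul]), sum_insert hj, sub_self, zero_smul, zero_add] at h1
        exact h1
    have hzero : ∀ i ∈ s, v i = 0 := by
      intro i hi
      obtain ⟨a, ha⟩ : ∃ a, μ i a ≠ μ j a := by
        by_contra! hall
        exact hj (hμ (mem_coe.2 (mem_insert_of_mem hi)) (mem_coe.2 (mem_insert_self j s)) (funext hall) ▸ hi)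
      exact (smul_eq_zero.1 (hrest i hi a)).resolve_left (sub_ne_zero.2 ha)
    rw [sum_insert hj, sum_eq_zero hzero, add_zero] at hsum
    intro i hi
    rcases mem_insert.1 hi with rfl | hi
    · exact hsum
    · exact hzero i hi

section sub

variable {Q : Type*} [Group Q]

/-- The representation on an invariant subspace. -/
def subRep (ρ : Q →* Module.End k V) (W : Submodule k V) (hW : ∀ x, ∀ v ∈ W, ρ x v ∈ W) :
    Q →* Module.End k W where
  toFun x := (ρ x).restrict (hW x)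
  map_one' := LinearMap.ext fun v => Subtype.ext (by simp)
  map_mul' x y := LinearMap.ext fun v => Subtype.ext (by simp)

@[simp] theorem subRep_apply (ρ : Q →* Module.End k V) (W : Submodule k V) (hW : ∀ x, ∀ v ∈ W, ρ x v ∈ W)
    (x : Q) (v : W) : (subRep ρ W hW x v : V) = ρ x v := rfl

theorem exists_weight [IsAlgClosed k] [FiniteDimensional k V] [Nontrivial V] (ρ : Q →* Module.End k V)
    (H : Subgroup Q) (hcomm : ∀ x ∈ H, ∀ y ∈ H, ρ x * ρ y = ρ y * ρ x) :
    ∃ μ : H → k, ∃ v : V, v ≠ 0 ∧ ∀ x : H, ρ x v = μ x • v := by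
  classical
  let S : Set (Submodule k V) := {M | M ≠ ⊥ ∧ ∀ x : H, ∀ v ∈ M, ρ x v ∈ M}
  obtain ⟨M, hM, hmin⟩ : ∃ M ∈ S, ∀ N ∈ S, N ≤ M → M ≤ N := by
    obtain ⟨M, hM⟩ := exists_minimal_of_wellFoundedLT (· ∈ S) ⟨⊤, top_ne_bot, fun _ _ _ => trivial⟩
    exact ⟨M, hM.1, fun N hN hNM => hM.2 hN hNM⟩
  obtain ⟨hMne, hMinv⟩ := hM
  have hscal : ∀ x : H, ∃ c : k, ∀ v ∈ M, ρ x v = c • v := by
    intro x
    haveI : Nontrivial M := Submodule.nontrivial_iff_ne_bot.2 hMne
    obtain ⟨c, hc⟩ := Module.End.exists_eigenvalue ((ρ x).restrict (hMinv x))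
    obtain ⟨w, hw, hw0⟩ := hc.exists_hasEigenvector
    refine ⟨c, fun v hv => ?_⟩
    have hN : M ⊓ Module.End.eigenspace (ρ x) c ∈ S := by
      refine ⟨fun hbot => hw0 ?_, fun y u hu => ?_⟩
      · have hmem : (w : V) ∈ M ⊓ Module.End.eigenspace (ρ x) c :=
          ⟨w.2, Module.End.mem_eigenspace_iff.2 (congrArg Subtype.val (Module.End.mem_eigenspace_iff.1 hw))⟩
        rw [hbot, Submodule.mem_bot] at hmem
        exact Subtype.ext hmem
      · rw [Submodule.mem_inf] at hu ⊢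
        refine ⟨hMinv y u hu.1, Module.End.mem_eigenspace_iff.2 ?_⟩
        rw [← Module.End.mul_apply, hcomm x x.2 y y.2, Module.End.mul_apply,
          Module.End.mem_eigenspace_iff.1 hu.2, map_smul]
    exact Module.End.mem_eigenspace_iff.1 (hmin _ hN inf_le_left hv).2
  choose μ hμ using hscal
  obtain ⟨v, hv, hv0⟩ := Submodule.exists_mem_ne_zero_of_ne_bot hMne
  exact ⟨μ, v, hv0, fun x => hμ x v hv⟩

end sub

section period

variable {Q : Type*} [Group Q] [Finite Q]

theorem symm_mem {σ : MulAut Q} {H : Subgroup Q} (hH : ∀ x ∈ H, σ x ∈ H) {x : Q} (hx : x ∈ H) :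
    σ.symm x ∈ H := by
  have hinj : Function.Injective fun y : H => (⟨σ y, hH y y.2⟩ : H) := fun a b h =>
    Subtype.ext (σ.injective (congrArg Subtype.val h))
  obtain ⟨y, hy⟩ := (Finite.injective_iff_surjective.1 hinj) ⟨x, hx⟩
  have : σ y = x := congrArg Subtype.val hy
  rw [← this, MulEquiv.symm_apply_apply]
  exact y.2

theorem pow_apply_mem {σ : MulAut Q} {H : Subgroup Q} (hH : ∀ x ∈ H, σ x ∈ H) (j : ℕ) {x : Q} (hx : x ∈ H) :
    (σ ^ j) x ∈ H := by
  induction j with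
  | zero => simpa using hx
  | succ j IH => rw [pow_succ', MulAut.mul_apply]; exact hH _ IH

theorem pow_semiconj {ρ : Q →* Module.End k V} {σ : MulAut Q} {T : Module.End k V}
    (hTρ : ∀ x, T * ρ x = ρ (σ x) * T) (j : ℕ) (x : Q) : T ^ j * ρ x = ρ ((σ ^ j) x) * T ^ j := by
  induction j with
  | zero => simp
  | succ j IH =>
    rw [pow_succ' T j, mul_assoc, IH, ← mul_assoc, hTρ, mul_assoc, pow_succ' σ j, MulAut.mul_apply]

variable [IsAlgClosed k] [FiniteDimensional k V] [Nontrivial V]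

/-- The common set-up: a weight of a `σ`-invariant subgroup and its translates under `T`. -/
theorem exists_period {p n : ℕ} (hp : p.Prime) (ρ : Q →* Module.End k V) (σ : MulAut Q) (T : Module.End k V)
    (hσ : σ ^ p ^ (n + 1) = 1) (hT : T ^ p ^ (n + 1) = 1)
    (hTρ : ∀ x, T * ρ x = ρ (σ x) * T) (hfpf : ∀ v, T v = v → v = 0)
    (H : Subgroup Q) (hH : ∀ x ∈ H, σ x ∈ H) (hcomm : ∀ x ∈ H, ∀ y ∈ H, ρ x * ρ y = ρ y * ρ x) :
    ∃ (i : ℕ) (μ : ℕ → H → k) (v : V), i ≤ n ∧ v ≠ 0 ∧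
      (∀ x : H, ρ x v = μ 0 x • v) ∧ (∀ l, μ (l + p ^ i) = μ l) ∧ Set.InjOn μ ↑(range (p ^ i)) ∧
      (∀ l, ∀ w : V, (∀ x : H, ρ x w = μ l x • w) → ∀ x : H, ρ x (T w) = μ (l + 1) x • T w) ∧
      (∀ x : H, μ 0 ⟨(σ ^ p ^ n) x, pow_apply_mem hH _ x.2⟩ = μ 0 x) := by
  classical
  obtain ⟨μ₀, v, hv0, hv⟩ := exists_weight ρ H hcomm
  let σH : H → H := fun x => ⟨σ.symm x, symm_mem hH x.2⟩
  let g : (H → k) → (H → k) := fun f => f ∘ σH
  have hgl : ∀ (l : ℕ) (f : H → k), g^[l] f = f ∘ σH^[l] := by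
    intro l
    induction l with
    | zero => intro f; rfl
    | succ l IH => intro f; rw [Function.iterate_succ_apply, IH, Function.iterate_succ']; rfl
  have hσl : ∀ (l : ℕ) (x : H), (σH^[l] x : Q) = (σ⁻¹ ^ l) x := by
    intro l
    induction l with
    | zero => intro x; rfl
    | succ l IH => intro x; rw [Function.iterate_succ_apply', pow_succ', MulAut.mul_apply, ← IH]; rfl
  have hstep : ∀ (f : H → k) (w : V), (∀ x : H, ρ x w = f x • w) → ∀ x : H, ρ x (T w) = g f x • T w := by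
    intro f w hw x
    have h1 := LinearMap.congr_fun (hTρ (σ.symm x)) w
    rw [Module.End.mul_apply, Module.End.mul_apply, MulEquiv.apply_symm_apply, hw (σH x), map_smul] at h1
    exact h1.symm
  have hperh : Function.IsPeriodicPt g (p ^ (n + 1)) μ₀ := by
    show g^[p ^ (n + 1)] μ₀ = μ₀
    rw [hgl]; funext x
    refine congrArg μ₀ (Subtype.ext ?_)
    rw [hσl, inv_pow, hσ, inv_one]; rfl
  obtain ⟨i, hi, hmin⟩ := (Nat.dvd_prime_pow hp).1 hperh.minimalPeriod_dvd
  have hwt : ∀ l, ∀ x : H, ρ x ((T ^ l) v) = g^[l] μ₀ x • (T ^ l) v := by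
    intro l
    induction l with
    | zero => simpa using hv
    | succ l IH => rw [pow_succ', Module.End.mul_apply, Function.iterate_succ_apply']; exact hstep _ _ IH
  have hin : i ≤ n := by
    by_contra hlt
    obtain rfl : i = n + 1 := by omega
    have hfix : T (∑ l ∈ range (p ^ (n + 1)), (T ^ l) v) = ∑ l ∈ range (p ^ (n + 1)), (T ^ l) v := by
      have h1 := Finset.sum_range_succ' (fun l => (T ^ l) v) (p ^ (n + 1))
      rw [Finset.sum_range_succ, hT, pow_zero] at h1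
      rw [map_sum]
      simp only [← Module.End.mul_apply, ← pow_succ']
      exact (add_right_cancel h1).symm
    have hall := weights_indep (fun x : H => ρ x) (range (p ^ (n + 1))) (fun l => (T ^ l) v)
      (fun l => g^[l] μ₀) (fun l _ x => hwt l x)
      (by rw [coe_range, ← hmin]; exact Function.iterate_injOn_Iio_minimalPeriod) (hfpf _ hfix)
    have := hall 0 (mem_range.2 (pow_pos hp.pos _))
    simp at this
    exact hv0 this
  refine ⟨i, fun l => g^[l] μ₀, v, hin, hv0, hv, fun l => ?_, ?_, fun l w hw x => ?_, fun x => ?_⟩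
  · show g^[l + p ^ i] μ₀ = g^[l] μ₀
    rw [Function.iterate_add_apply, ← hmin, Function.iterate_minimalPeriod]
  · rw [coe_range, ← hmin]; exact Function.iterate_injOn_Iio_minimalPeriod
  · show ρ x (T w) = g^[l + 1] μ₀ x • T w
    rw [Function.iterate_succ_apply']
    exact hstep _ w hw x
  · have hper : Function.IsPeriodicPt g (p ^ n) μ₀ := by
      refine (Function.isPeriodicPt_minimalPeriod g μ₀).trans_dvd ?_
      rw [hmin]; exact pow_dvd_pow p hin
    have h1 : g^[p ^ n] μ₀ ⟨(σ ^ p ^ n) x, pow_apply_mem hH _ x.2⟩ =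
        μ₀ ⟨(σ ^ p ^ n) x, pow_apply_mem hH _ x.2⟩ := congrFun hper.eq _
    rw [hgl] at h1
    refine h1.symm.trans (congrArg μ₀ (Subtype.ext ?_))
    rw [hσl, inv_pow, MulAut.inv_apply]
    exact MulEquiv.symm_apply_apply _ _

theorem fixed_on_central {p n : ℕ} (hp : p.Prime) (ρ : Q →* Module.End k V) (σ : MulAut Q) (T : Module.End k V)
    (hσ : σ ^ p ^ (n + 1) = 1) (hT : T ^ p ^ (n + 1) = 1)
    (hTρ : ∀ x, T * ρ x = ρ (σ x) * T) (hfpf : ∀ v, T v = v → v = 0)
    (hirr : ∀ U : Submodule k V, (∀ x, ∀ v ∈ U, ρ x v ∈ U) → (∀ v ∈ U, T v ∈ U) → U = ⊥ ∨ U = ⊤)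
    (H : Subgroup Q) (hH : ∀ x ∈ H, σ x ∈ H) (hcomm : ∀ x ∈ H, ∀ y, ρ x * ρ y = ρ y * ρ x) :
    ∀ x ∈ H, ρ ((σ ^ p ^ n) x) = ρ x := by
  obtain ⟨i, μ, v, -, hv0, hv, -, -, -, hfix⟩ :=
    exists_period hp ρ σ T hσ hT hTρ hfpf H hH (fun x hx y _ => hcomm x hx y)
  let U : Submodule k V := ⨅ x : H, LinearMap.ker (ρ ((σ ^ p ^ n) x) - ρ x)
  have hU : ∀ w, w ∈ U ↔ ∀ x : H, ρ ((σ ^ p ^ n) x) w = ρ x w := fun w => by
    simp [U, Submodule.mem_iInf, sub_eq_zero]
  have hTU : ∀ w ∈ U, T w ∈ U := by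
    intro w hw
    rw [hU] at hw ⊢
    intro x
    have hc : σ ((σ ^ p ^ n) (σ.symm x)) = (σ ^ p ^ n) x := by
      conv_lhs => rw [← MulAut.mul_apply, ← pow_succ', pow_succ, MulAut.mul_apply, MulEquiv.apply_symm_apply]
    have h1 := LinearMap.congr_fun (hTρ ((σ ^ p ^ n) (σ.symm x))) w
    have h2 := LinearMap.congr_fun (hTρ (σ.symm x)) w
    rw [Module.End.mul_apply, Module.End.mul_apply] at h1 h2
    rw [hc] at h1
    rw [MulEquiv.apply_symm_apply] at h2
    rw [← h1, ← h2]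
    exact congrArg T (hw ⟨σ.symm x, symm_mem hH x.2⟩)
  have hQU : ∀ y, ∀ w ∈ U, ρ y w ∈ U := by
    intro y w hw
    rw [hU] at hw ⊢
    intro x
    rw [← Module.End.mul_apply, hcomm _ (pow_apply_mem hH _ x.2) y, ← Module.End.mul_apply, hcomm _ x.2 y,
      Module.End.mul_apply, Module.End.mul_apply, hw x]
  have hvU : v ∈ U := by
    rw [hU]
    intro x
    rw [hv ⟨(σ ^ p ^ n) x, pow_apply_mem hH _ x.2⟩, hfix x, hv x]
  rcases hirr U hQU hTU with h | h
  · rw [h, Submodule.mem_bot] at hvU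
    exact absurd hvU hv0
  · intro x hx
    refine LinearMap.ext fun w => ?_
    exact (hU w).1 (by rw [h]; trivial) ⟨x, hx⟩

end period

end CfsgLib.ShultGross
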